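import Cfsg.Agent.SUSixU43.Check
import Cfsg.Agent.Classical.ExcSixMinus
import Cfsg.Agent.Refl.Basic
import Cfsg.Agent.CosetCert.Basic

/-!
The group with generators of the 126-point certificate is the simple orthogonal group of minus
type in dimension six over three elements, hence the simple unitary group in dimension four over
nine elements.
-/

set_option autoImplicit false
set_option maxRecDepth 100000

namespace Cfsg.Agent.SUSixU43

open Equiv Matrix Cfsg.Agent.SchurBound
open scoped commutatorElement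

/-- The field. -/
abbrev K3 : Type := ZMod 3

/-- The index type. -/
abbrev I6 : Type := (Fin 2 ⊕ Fin 2) ⊕ Fin 2

/-- The quadratic form. -/
noncomputable abbrev qM : QuadraticForm K3 (I6 → K3) := Classical.minusQF 2 (0 : K3) 1

/-- The quadratic form, written out. -/
def qV (x : I6 → K3) : K3 :=
  x (.inl (.inl 0)) * x (.inl (.inr 0)) + x (.inl (.inl 1)) * x (.inl (.inr 1)) +
    (x (.inr 0) * x (.inr 0) + x (.inr 1) * x (.inr 1))

theorem qM_apply (x : I6 → K3) : qM x = qV x := by
  rw [Classical.minusQF_apply, Cfsg.quadFormMinus, qV, Fin.sum_univ_two]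
  ring

/-- Position of a coordinate in a ternary code. -/
def posI : I6 → ℕ
  | .inl (.inl i) => i.val
  | .inl (.inr i) => 2 + i.val
  | .inr i => 4 + i.val

/-- The vector of a ternary code. -/
def vec3 (n : ℕ) : I6 → K3 := fun i => ((n / 3 ^ posI i % 3 : ℕ) : K3)

/-- The ternary code of a vector. -/
def enc3 (x : I6 → K3) : ℕ :=
  (x (.inl (.inl 0))).val + 3 * (x (.inl (.inl 1))).val + 9 * (x (.inl (.inr 0))).val +
    27 * (x (.inl (.inr 1))).val + 81 * (x (.inr 0)).val + 243 * (x (.inr 1)).val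

theorem vec3_enc3 (x : I6 → K3) : vec3 (enc3 x) = x := by
  funext i
  have hv : ∀ t : K3, t.val < 3 := fun t => ZMod.val_lt t
  have h0 := hv (x (.inl (.inl 0))); have h1 := hv (x (.inl (.inl 1)))
  have h2 := hv (x (.inl (.inr 0))); have h3 := hv (x (.inl (.inr 1)))
  have h4 := hv (x (.inr 0)); have h5 := hv (x (.inr 1))
  have key : enc3 x / 3 ^ posI i % 3 = (x i).val := by
    unfold enc3
    rcases i with (j | j) | j <;> fin_cases j <;> simp [posI] <;> omega
  rw [vec3, key, ZMod.natCast_zmod_val]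

theorem enc3_lt (x : I6 → K3) : enc3 x < 729 := by
  have hv : ∀ t : K3, t.val < 3 := fun t => ZMod.val_lt t
  have h0 := hv (x (.inl (.inl 0))); have h1 := hv (x (.inl (.inl 1)))
  have h2 := hv (x (.inl (.inr 0))); have h3 := hv (x (.inl (.inr 1)))
  have h4 := hv (x (.inr 0)); have h5 := hv (x (.inr 1))
  unfold enc3
  omega

/-- The representative of a point. -/
def ptO (k : Fin 126) : I6 → K3 := vec3 (getN 16 rvN k)

/-- The point of a vector of value one. -/
def idxO (x : I6 → K3) : Fin 126 := ⟨getN 8 idxON (enc3 x) % 126, Nat.mod_lt _ (Nat.succ_pos _)⟩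

theorem qV_ptO : ∀ k : Fin 126, qV (ptO k) = 1 := by decide +kernel

theorem idxO_spec (x : I6 → K3) (hx : qV x = 1) : x = ptO (idxO x) ∨ x = -ptO (idxO x) := by
  have hb : allN (fun n => !decide (qV (vec3 n) = 1) ||
      (decide (∀ i : I6, vec3 n i = ptO (idxO (vec3 n)) i) ||
        decide (∀ i : I6, vec3 n i = -ptO (idxO (vec3 n)) i))) 729 = true := by decide +kernel
  have h := allN_iff hb _ (enc3_lt x)
  simp only [vec3_enc3, Bool.or_eq_true, decide_eq_true_eq, hx, decide_true, Bool.not_true,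
    Bool.false_eq_true, false_or] at h
  exact h.imp funext funext

theorem idxO_ptO : ∀ k : Fin 126, idxO (ptO k) = k ∧ idxO (-ptO k) = k := by decide +kernel

theorem qV_neg (x : I6 → K3) : qV (-x) = qV x := by simp [qV]

theorem idxO_neg {x : I6 → K3} (hx : qV x = 1) : idxO (-x) = idxO x := by
  rcases idxO_spec x hx with h | h
  · rw [h, (idxO_ptO _).1, (idxO_ptO _).2]
  · rw [h, neg_neg, (idxO_ptO _).1, (idxO_ptO _).2]

/-- The isometry group. -/
abbrev OM : Type := ↥(Cfsg.isometryGroup K3 ⇑qM)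

/-- The matrix of an isometry. -/
abbrev mO (g : OM) : Matrix I6 I6 K3 := ((g : Matrix.GeneralLinearGroup I6 K3) : Matrix I6 I6 K3)

theorem qV_act (g : OM) (x : I6 → K3) : qV (mO g *ᵥ x) = qV x := by
  rw [← qM_apply, ← qM_apply]
  exact (Refl.mem_isometryGroup_iff qM).1 g.2 x

/-- The image of a point. -/
def moveO (g : OM) (k : Fin 126) : Fin 126 := idxO (mO g *ᵥ ptO k)

theorem moveO_one (k : Fin 126) : moveO 1 k = k := by
  rw [moveO, show mO 1 = 1 from rfl, Matrix.one_mulVec, (idxO_ptO k).1]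

theorem moveO_mul (g h : OM) (k : Fin 126) : moveO (g * h) k = moveO g (moveO h k) := by
  have hq : qV (mO h *ᵥ ptO k) = 1 := (qV_act h _).trans (qV_ptO k)
  have hm : mO (g * h) *ᵥ ptO k = mO g *ᵥ (mO h *ᵥ ptO k) := by
    rw [show mO (g * h) = mO g * mO h from rfl, Matrix.mulVec_mulVec]
  unfold moveO
  rw [hm]
  rcases idxO_spec _ hq with e | e
  · conv_lhs => rw [e]
  · conv_lhs => rw [e, Matrix.mulVec_neg, idxO_neg ((qV_act g _).trans (qV_ptO _))]

/-- The action on the points. -/
noncomputable def homO : OM →* Perm (Fin 126) where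
  toFun g :=
    { toFun := moveO g
      invFun := moveO g⁻¹
      left_inv := fun k => by rw [← moveO_mul, inv_mul_cancel, moveO_one]
      right_inv := fun k => by rw [← moveO_mul, mul_inv_cancel, moveO_one] }
  map_one' := Equiv.ext moveO_one
  map_mul' g h := Equiv.ext fun k => moveO_mul g h k

/-- The reflection of one point applied to another. -/
def rMove (c k : Fin 126) : Fin 126 :=
  idxO fun i => ptO k i - (qV (ptO k + ptO c) - qV (ptO c) - qV (ptO k)) * ptO c i

theorem rMove_ok : ∀ c k : Fin 126, (rMove c k : ℕ) = J2.look (tvTabs.getD c 0) k := by decide +kernel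

/-- The reflection of a point. -/
noncomputable def reflP (c : Fin 126) : OM :=
  Refl.reflectionIso qM (ptO c) (by rw [qM_apply, qV_ptO]; exact one_ne_zero)

theorem homO_refl (c : Fin 126) : homO (reflP c) = tvP c := by
  refine Equiv.ext fun k => Fin.ext ?_
  rw [tvP_apply c.2, ← rMove_ok c k]
  show (idxO (Cfsg.reflectionMatrix (⇑qM) (ptO c) *ᵥ ptO k) : ℕ) = _
  rw [Refl.reflectionMatrix_mulVec, qM_apply, qV_ptO, inv_one, one_mul, rMove]
  congr 2
  funext i
  simp only [QuadraticMap.polar, qM_apply, Pi.sub_apply, Pi.smul_apply, smul_eq_mul, add_comm (ptO c)]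

/-- The orthogonal group. -/
abbrev OmM : Type := ↥(Cfsg.Omega K3 ⇑qM)

/-- Its action. -/
noncomputable def homOm : OmM →* Perm (Fin 126) := homO.comp (Subgroup.subtype _)

theorem chKSub_lt : ∀ i ∈ chKSub, i < 10 := by decide +kernel

theorem grpK_le_range : grp chKSub ≤ homOm.range := by
  refine (Subgroup.closure_le _).2 ?_
  rintro _ ⟨i, hi, rfl⟩
  have h10 := chKSub_lt i hi
  obtain ⟨h1, h2⟩ := pairs_lt ⟨i, h10⟩
  let a := reflP ⟨(pairOf i).1, h1⟩
  let b := reflP ⟨(pairOf i).2, h2⟩
  have hm : ⁅a, b⁆ ∈ Cfsg.Omega K3 ⇑qM :=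
    Subgroup.commutator_mem_commutator (Subgroup.mem_top a) (Subgroup.mem_top b)
  refine ⟨⟨_, hm⟩, ?_⟩
  show homO ⁅a, b⁆ = _
  rw [map_commutatorElement, homO_refl, homO_refl, genP, if_pos h10, commutatorElement_def,
    inv_eq_of_mul_eq_one_right (tvP_sq h1), inv_eq_of_mul_eq_one_right (tvP_sq h2), pow_two,
    mul_assoc]

/-- The first base point of the chain. -/
def baseK : Fin 126 := ⟨18, by norm_num⟩

theorem baseK_ok : chK0.base = 18 ∧
    allN (fun k => Nat.beq k 18 || (J2.gensOf [chK1, chK2, chK3]).any fun t =>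
      !(Nat.beq (J2.look t.1 k) k)) 126 = true ∧
    (chK0.trans.map fun t => J2.look t.1 18).length = 126 := by decide +kernel

theorem chK0_cover : allN (fun k => chK0.trans.any fun t => Nat.beq (J2.look t.1 18) k) 126 = true := by
  decide +kernel

theorem grpK_transitive (k : Fin 126) : ∃ g ∈ grp chKSub, g baseK = k := by
  obtain ⟨t, ht, hte⟩ := List.any_eq_true.1 (allN_iff chK0_cover k k.2)
  have hl := J2.levelOK_spec chK0_ok (J2.chain_spec chKrest_ok).2.2
    (J2.gensOf_isTab (Ls := chK0 :: [chK1, chK2, chK3]) chK_ok)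
  obtain ⟨hb0, -, -, -, htr⟩ := hl
  obtain ⟨g, hg, hgx⟩ := htr t ht
  refine ⟨g, (grp_eq_chainGroup chK_ok chK_words).symm ▸ hg, Fin.ext ?_⟩
  have e : baseK = (⟨chK0.base, by rw [baseK_ok.1]; norm_num⟩ : Fin 126) := Fin.ext baseK_ok.1.symm
  rw [e, hgx, baseK_ok.1, Nat.eq_of_beq_eq_true hte]

theorem center_le_ker : Subgroup.center OmM ≤ homOm.ker := by
  intro z hz
  have hcomm : ∀ g ∈ grp chKSub, homOm z * g = g * homOm z := by
    intro g hg
    obtain ⟨y, rfl⟩ := grpK_le_range hg
    rw [← map_mul, ← map_mul, Subgroup.mem_center_iff.1 hz y]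
  have hfix : homOm z baseK = baseK := by
    by_contra hne
    have hk := allN_iff baseK_ok.2.1 (homOm z baseK) (homOm z baseK).2
    rw [show Nat.beq ((homOm z baseK : Fin 126) : ℕ) 18 = false from
      Bool.eq_false_iff.2 fun e => hne (Fin.ext (Nat.eq_of_beq_eq_true e)), Bool.false_or] at hk
    obtain ⟨t, ht, hte⟩ := List.any_eq_true.1 hk
    have htab := J2.gensOf_isTab (Ls := [chK1, chK2, chK3]) chKrest_ok t ht
    have hmem : J2.tabPerm 126 t ∈ J2.chainGroup 126 [chK1, chK2, chK3] :=
      Subgroup.subset_closure (List.mem_map.2 ⟨t, ht, rfl⟩)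
    have hK : J2.tabPerm 126 t ∈ grp chKSub := by
      rw [grp_eq_chainGroup chK_ok chK_words]
      exact J2.chainGroup_cons_le chK0 _ hmem
    have hl := J2.levelOK_spec chK0_ok (J2.chain_spec chKrest_ok).2.2
      (J2.gensOf_isTab (Ls := chK0 :: [chK1, chK2, chK3]) chK_ok)
    obtain ⟨hb0, -, hstab, -, -⟩ := hl
    have hb : J2.tabPerm 126 t baseK = baseK := by
      have e : baseK = (⟨chK0.base, by rw [baseK_ok.1]; norm_num⟩ : Fin 126) :=
        Fin.ext baseK_ok.1.symm
      rw [e]
      exact (hstab _ (J2.chainGroup_cons_le chK0 _ hmem)).2 hmem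
    have h2 := congrArg (fun p : Perm (Fin 126) => p baseK) (hcomm _ hK)
    simp only [Perm.mul_apply, hb] at h2
    have h3 := congrArg Fin.val h2.symm
    rw [J2.tabPerm_apply htab] at h3
    rw [h3] at hte
    simp at hte
  refine MonoidHom.mem_ker.2 (Equiv.ext fun k => ?_)
  obtain ⟨g, hg, rfl⟩ := grpK_transitive k
  have h2 := congrArg (fun p : Perm (Fin 126) => p baseK) (hcomm g hg)
  simp only [Perm.mul_apply, hfix] at h2
  simpa using h2

theorem nine : ∀ z₁ z₂ : K3, z₁ ^ 2 + 0 * z₁ * z₂ + 1 * z₂ ^ 2 = 0 → z₁ = 0 ∧ z₂ = 0 := by decide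

/-- The orthogonal group modulo its centre is the unitary group. -/
theorem nonempty_psu_equiv (F : Type) [Field F] [Fintype F] (hF : Fintype.card F = 9) :
    Nonempty (Cfsg.POmega K3 ⇑qM ≃* Cfsg.PSU 4 F 3) := by
  obtain ⟨e⟩ := Classical.Exc.nonempty_POmega_six_minus (F := K3) (K := F) (q := 3) (ZMod.card 3)
    (by rw [hF]; norm_num) (0 : K3) 1 nine
  have h : (⇑qM : (I6 → K3) → K3) = Cfsg.quadFormMinus 2 K3 0 1 :=
    funext fun x => Classical.minusQF_apply 2 0 1 x
  rw [h]
  exact ⟨e⟩

theorem psu_facts (F : Type) [Field F] [Fintype F] (hF : Fintype.card F = 9) :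
    Nat.card (Cfsg.PSU 4 F 3) = 3265920 ∧ IsSimpleGroup (Cfsg.PSU 4 F 3) := by
  have hS := Classical.U.sqField_of_fintype (F := F) (q := 3) (by rw [hF]; norm_num)
  refine ⟨?_, Classical.U.isSimpleGroup_PSU hS (by norm_num) (by norm_num)⟩
  have h := Classical.U.card_PSU (n := 4) hS (by norm_num)
  rw [Classical.U.card_UG hS] at h
  norm_num [Finset.prod_range_succ] at h
  omega

/-- The certified group is the simple unitary group. -/
theorem nonempty_grpK_equiv (F : Type) [Field F] [Fintype F] (hF : Fintype.card F = 9) :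
    Nonempty (↥(grp chKSub) ≃* Cfsg.PSU 4 F 3) := by
  obtain ⟨hcard, hsimp⟩ := psu_facts F hF
  obtain ⟨e⟩ := nonempty_psu_equiv F hF
  haveI : IsSimpleGroup (OmM ⧸ Subgroup.center OmM) :=
    haveI : Nontrivial (OmM ⧸ Subgroup.center OmM) := e.toEquiv.nontrivial
    IsSimpleGroup.isSimpleGroup_of_surjective e.symm.toMonoidHom e.symm.surjective
  let f : OmM ⧸ Subgroup.center OmM →* Perm (Fin 126) :=
    QuotientGroup.lift _ homOm center_le_ker
  have hrange : f.range = homOm.range := by
    ext x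
    constructor
    · rintro ⟨y, rfl⟩
      obtain ⟨y, rfl⟩ := QuotientGroup.mk'_surjective _ y
      exact ⟨y, rfl⟩
    · rintro ⟨y, rfl⟩
      exact ⟨QuotientGroup.mk' _ y, rfl⟩
  have hinj : Function.Injective f := by
    rcases IsSimpleGroup.eq_bot_or_eq_top_of_normal f.ker inferInstance with h | h
    · exact (MonoidHom.ker_eq_bot_iff f).1 h
    · exfalso
      have hbot : grp chKSub = ⊥ := eq_bot_iff.2 fun g hg => by
        obtain ⟨y, rfl⟩ := hrange.symm ▸ grpK_le_range hg
        exact Subgroup.mem_bot.2 (MonoidHom.mem_ker.1 (h.symm ▸ Subgroup.mem_top y))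
      have := card_grpK
      rw [hbot, Subgroup.card_bot] at this
      norm_num at this
  have hc : Nat.card f.range = 3265920 := by
    rw [← Nat.card_congr (MonoidHom.ofInjective hinj).toEquiv, Nat.card_congr e.toEquiv, hcard]
  have heq : grp chKSub = f.range := by
    refine Subgroup.eq_of_le_of_card_ge (hrange.symm ▸ grpK_le_range) ?_
    rw [hc, card_grpK]
  exact ⟨(MulEquiv.subgroupCongr heq).trans ((MonoidHom.ofInjective hinj).symm.trans e)⟩

end Cfsg.Agent.SUSixU43
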