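import Cfsg.Agent.SUSixU43.Main
import Cfsg.Agent.IsoPSU42.Main

/-!
The three classes of triple covers of `PSU(4, 3)` in `SU(6, 2)`.
-/

set_option autoImplicit false
set_option maxRecDepth 100000

namespace Cfsg.Agent.SUSixU43

open Equiv Cfsg.Agent.SporB.FischerU Cfsg.Agent.GFour25

theorem card_ker_pointHom : Nat.card pointHom.ker = 3 := by
  rw [pointHom_ker, Classical.U.card_center_SU sqField_F4 (by norm_num)]
  norm_num

theorem center_ker : ∀ z ∈ pointHom.ker, ∀ s : SUSix, s * z = z * s := fun z hz s => by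
  rw [pointHom_ker] at hz
  exact Subgroup.mem_center_iff.1 hz s

variable {F9 : Type} [Field F9] [Fintype F9] (hF9 : Fintype.card F9 = 9)

/-- The covers. -/
noncomputable def cover (i : Fin 3) : Subgroup SUSix := (GKd i).comap pointHom

theorem ker_le_cover (i : Fin 3) : pointHom.ker ≤ cover i := fun z hz => by
  show pointHom z ∈ GKd i
  rw [MonoidHom.mem_ker.1 hz]
  exact one_mem _

theorem map_cover (i : Fin 3) : (cover i).map pointHom = GKd i :=
  Subgroup.map_comap_eq_self (GKd_le_Gb i)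

include hF9

theorem simple_facts : IsSimpleGroup (Cfsg.PSU 4 F9 3) ∧ Nat.card (Cfsg.PSU 4 F9 3) = 3265920 :=
  ⟨(psu_facts F9 hF9).2, (psu_facts F9 hF9).1⟩

theorem nonempty_GK_psu : Nonempty (GK ≃* Cfsg.PSU 4 F9 3) := by
  obtain ⟨e⟩ := nonempty_grpK_equiv F9 hF9
  exact ⟨(grpEquiv chKSub).trans e⟩

theorem cover_facts (i : Fin 3) : Nat.card ↥(Subgroup.center ↥(cover i)) = 3 ∧
    Nonempty (↥(cover i) ⧸ Subgroup.center ↥(cover i) ≃* Cfsg.PSU 4 F9 3) := by
  obtain ⟨e0⟩ := nonempty_GK_psu hF9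
  obtain ⟨e1⟩ := nonempty_GK_equiv_GKd i
  obtain ⟨hsimp, hcard⟩ := simple_facts hF9
  let e : GKd i ≃* Cfsg.PSU 4 F9 3 := e1.symm.trans e0
  let φ : cover i →* GKd i :=
    (pointHom.comp (cover i).subtype).codRestrict (GKd i) fun x => x.2
  have hsurj : Function.Surjective φ := by
    rintro ⟨y, hy⟩
    obtain ⟨s, rfl⟩ := GKd_le_Gb i hy
    exact ⟨⟨s, hy⟩, rfl⟩
  have hcen : Subgroup.center (cover i) = φ.ker := by
    apply le_antisymm
    · intro z hz
      have hz' : e (φ z) ∈ Subgroup.center (Cfsg.PSU 4 F9 3) := by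
        rw [Subgroup.mem_center_iff]
        intro q
        obtain ⟨y, rfl⟩ := e.surjective q
        obtain ⟨w, rfl⟩ := hsurj y
        rw [← map_mul, ← map_mul, ← map_mul, ← map_mul, Subgroup.mem_center_iff.1 hz w]
      have hbot : Subgroup.center (Cfsg.PSU 4 F9 3) = ⊥ := by
        rcases hsimp.eq_bot_or_eq_top_of_normal (Subgroup.center (Cfsg.PSU 4 F9 3)) inferInstance with h | h
        · exact h
        · exfalso
          have := hsimp
          have hcomm : ∀ a b : Cfsg.PSU 4 F9 3, a * b = b * a := fun a b =>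
            Subgroup.mem_center_iff.1 (h ▸ Subgroup.mem_top b) a
          letI : CommGroup (Cfsg.PSU 4 F9 3) := { mul_comm := hcomm }
          have hp : (Nat.card (Cfsg.PSU 4 F9 3)).Prime := IsSimpleGroup.prime_card
          rw [hcard] at hp
          exact absurd hp (by norm_num)
      rw [hbot, Subgroup.mem_bot] at hz'
      exact MonoidHom.mem_ker.2 (e.injective (hz'.trans (map_one e).symm))
    · intro z hz
      rw [Subgroup.mem_center_iff]
      intro w
      have hk : (z : SUSix) ∈ pointHom.ker :=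
        MonoidHom.mem_ker.2 (congrArg Subtype.val (MonoidHom.mem_ker.1 hz))
      exact Subtype.ext (center_ker _ hk w)
  refine ⟨?_, ?_⟩
  · rw [hcen, ← card_ker_pointHom]
    refine Nat.card_congr
      { toFun := fun z => ⟨z.1.1, MonoidHom.mem_ker.2 (congrArg Subtype.val (MonoidHom.mem_ker.1 z.2))⟩
        invFun := fun z => ⟨⟨z.1, ker_le_cover i z.2⟩,
          MonoidHom.mem_ker.2 (Subtype.ext (MonoidHom.mem_ker.1 z.2))⟩
        left_inv := fun _ => rfl
        right_inv := fun _ => rfl }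
  · exact ⟨((QuotientGroup.quotientMulEquivOfEq hcen).trans
      (QuotientGroup.quotientKerEquivOfSurjective φ hsurj)).trans e⟩

theorem cover_classify (K : Subgroup SUSix) (hZ : Nat.card ↥(Subgroup.center ↥K) = 3)
    (hQ : Nonempty (↥K ⧸ Subgroup.center ↥K ≃* Cfsg.PSU 4 F9 3)) :
    ∃ g : SUSix, ∃ i : Fin 3, K.map (MulAut.conj g).toMonoidHom = cover i := by
  obtain ⟨q⟩ := hQ
  obtain ⟨e0⟩ := nonempty_GK_psu hF9
  obtain ⟨-, hcard⟩ := simple_facts hF9
  have hK : Nat.card K = 9797760 := by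
    rw [Subgroup.card_eq_card_quotient_mul_card_subgroup (Subgroup.center K), hZ,
      Nat.card_congr q.toEquiv, hcard]
  let φ := pointHom.comp K.subtype
  have hkerle : φ.ker ≤ Subgroup.center K := fun z hz => by
    rw [Subgroup.mem_center_iff]
    exact fun w => Subtype.ext (center_ker _ (MonoidHom.mem_ker.2 (MonoidHom.mem_ker.1 hz :)) w)
  have hrange : φ.range ≤ Gb := by
    rintro _ ⟨x, rfl⟩
    exact ⟨x.1, rfl⟩
  have hker3 : Nat.card φ.ker ∣ 3 := hZ ▸ Subgroup.card_dvd_of_le hkerle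
  have hne : Nat.card φ.ker ≠ 1 := by
    intro h1
    have h2 := Subgroup.card_eq_card_quotient_mul_card_subgroup φ.ker
    rw [h1, mul_one, Nat.card_congr (QuotientGroup.quotientKerEquivRange φ).toEquiv, hK] at h2
    have h3 := Subgroup.card_dvd_of_le hrange
    rw [← h2, card_range_pointHom] at h3
    norm_num at h3
  have hker : φ.ker = Subgroup.center K := by
    refine Subgroup.eq_of_le_of_card_ge hkerle ?_
    rcases (Nat.dvd_prime Nat.prime_three).1 hker3 with h | h
    · exact absurd h hne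
    · rw [h, hZ]
  have hkK : pointHom.ker ≤ K := by
    have hle : φ.ker.map K.subtype ≤ pointHom.ker := by
      rintro _ ⟨z, hz, rfl⟩
      exact MonoidHom.mem_ker.2 (MonoidHom.mem_ker.1 hz :)
    have := Subgroup.eq_of_le_of_card_ge hle (by
      rw [card_ker_pointHom, card_map_injective _ K.subtype_injective, hker, hZ])
    rw [← this]
    exact Subgroup.map_subtype_le _
  have eX : GK ≃* φ.range :=
    ((e0.trans q.symm).trans (QuotientGroup.quotientMulEquivOfEq hker.symm)).trans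
      (QuotientGroup.quotientKerEquivRange φ)
  obtain ⟨g, hg, i, hgi⟩ := classify hrange eX
  obtain ⟨s, rfl⟩ := hg
  refine ⟨s, i, ?_⟩
  have hmap : (K.map (MulAut.conj s).toMonoidHom).map pointHom = GKd i := by
    rw [← hgi, MonoidHom.range_comp, Subgroup.range_subtype, Subgroup.map_map, Subgroup.map_map]
    congr 1
    ext x
    simp
  rw [cover, ← hmap, Subgroup.comap_map_eq_self]
  intro z hz
  exact ⟨z, hkK hz, by
    show s * z * s⁻¹ = z
    rw [center_ker z hz s, mul_inv_cancel_right]⟩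

omit hF9 in
theorem cover_not_conj (s : SUSix) {i j : Fin 3}
    (h : (cover i).map (MulAut.conj s).toMonoidHom = cover j) : i = j := by
  refine eq_of_conj (g := pointHom s) ⟨s, rfl⟩ ?_
  rw [← map_cover i, ← map_cover j, ← h, Subgroup.map_map, Subgroup.map_map]
  congr 1
  ext x
  simp

theorem three_classes (F : Type) [Field F] [Fintype F] (hF : Fintype.card F = 4) :
    ∃ K₁ K₂ K₃ : Subgroup ↥(Cfsg.SU 6 F 2),
      (∀ K ∈ [K₁, K₂, K₃], Nat.card ↥(Subgroup.center ↥K) = 3 ∧
        Nonempty (↥K ⧸ Subgroup.center ↥K ≃* Cfsg.PSU 4 F9 3)) ∧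
      (¬ ∃ g : ↥(Cfsg.SU 6 F 2), K₁.map (MulAut.conj g).toMonoidHom = K₂) ∧
      (¬ ∃ g : ↥(Cfsg.SU 6 F 2), K₁.map (MulAut.conj g).toMonoidHom = K₃) ∧
      (¬ ∃ g : ↥(Cfsg.SU 6 F 2), K₂.map (MulAut.conj g).toMonoidHom = K₃) ∧
      ∀ K : Subgroup ↥(Cfsg.SU 6 F 2), Nat.card ↥(Subgroup.center ↥K) = 3 →
        Nonempty (↥K ⧸ Subgroup.center ↥K ≃* Cfsg.PSU 4 F9 3) →
        ∃ g : ↥(Cfsg.SU 6 F 2), K.map (MulAut.conj g).toMonoidHom = K₁ ∨
          K.map (MulAut.conj g).toMonoidHom = K₂ ∨ K.map (MulAut.conj g).toMonoidHom = K₃ := by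
  obtain ⟨r⟩ := exists_ringEquiv hF
  obtain ⟨T⟩ := IsoPSU42.nonempty_su_equiv 6 2 r.symm
  let K' (i : Fin 3) : Subgroup ↥(Cfsg.SU 6 F 2) := (cover i).map T.symm.toMonoidHom
  have hconj : ∀ (g : Cfsg.SU 6 F 2) (H : Subgroup (Cfsg.SU 6 F 2)),
      (H.map (MulAut.conj g).toMonoidHom).map T.toMonoidHom =
        (H.map T.toMonoidHom).map (MulAut.conj (T g)).toMonoidHom := by
    intro g H
    rw [Subgroup.map_map, Subgroup.map_map]
    congr 1
    ext x
    simp
  have hTT : ∀ i, (K' i).map T.toMonoidHom = cover i := fun i => by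
    rw [Subgroup.map_map]
    convert Subgroup.map_id (cover i)
    ext x
    simp
  have hiso : ∀ {G H : Type} [Group G] [Group H], (G ≃* H) →
      Nat.card (Subgroup.center G) = Nat.card (Subgroup.center H) := fun {G H} _ _ e => by
    refine Nat.card_congr (e.toEquiv.subtypeEquiv fun x => ?_)
    simp only [Subgroup.mem_center_iff, MulEquiv.toEquiv_eq_coe, EquivLike.coe_coe]
    rw [e.surjective.forall]
    simp [← map_mul]
  have hnot : ∀ i j, i ≠ j → ¬ ∃ g, (K' i).map (MulAut.conj g).toMonoidHom = K' j := by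
    rintro i j hij ⟨g, hg⟩
    apply hij
    refine cover_not_conj (T g) ?_
    rw [← hTT i, ← hconj, hg, hTT j]
  refine ⟨K' 0, K' 1, K' 2, ?_, hnot 0 1 (by decide), hnot 0 2 (by decide), hnot 1 2 (by decide), ?_⟩
  · intro K hK
    obtain ⟨i, rfl⟩ : ∃ i, K = K' i := by
      simp only [List.mem_cons, List.not_mem_nil, or_false] at hK
      rcases hK with h | h | h
      exacts [⟨0, h⟩, ⟨1, h⟩, ⟨2, h⟩]
    obtain ⟨h1, ⟨q⟩⟩ := cover_facts hF9 i
    let e := Subgroup.equivMapOfInjective (cover i) T.symm.toMonoidHom T.symm.injective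
    obtain ⟨q'⟩ := IsoPSU42.centerQuot_congr e
    exact ⟨(hiso e).symm.trans h1, ⟨q'.symm.trans q⟩⟩
  · intro K hZ ⟨q⟩
    let e := Subgroup.equivMapOfInjective K T.toMonoidHom T.injective
    obtain ⟨q'⟩ := IsoPSU42.centerQuot_congr e
    obtain ⟨s, i, hi⟩ := cover_classify hF9 (K.map T.toMonoidHom) ((hiso e).symm.trans hZ)
      ⟨q'.symm.trans q⟩
    refine ⟨T.symm s, ?_⟩
    have hKi : K.map (MulAut.conj (T.symm s)).toMonoidHom = K' i := by
      apply Subgroup.map_injective (f := T.toMonoidHom) T.injective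
      rw [hconj, hTT, MulEquiv.apply_symm_apply, hi]
    fin_cases i
    · exact Or.inl hKi
    · exact Or.inr (Or.inl hKi)
    · exact Or.inr (Or.inr hKi)

end Cfsg.Agent.SUSixU43
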