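import Mathlib

/-! Two rewriting rules for permutations. -/

set_option autoImplicit false

namespace Cfsg.Agent.SUSixU43

theorem inv_app {α : Type*} (g : Equiv.Perm α) (x : α) : g⁻¹ (g x) = x := g.symm_apply_apply x

theorem app_inv {α : Type*} (g : Equiv.Perm α) (x : α) : g (g⁻¹ x) = x := g.apply_symm_apply x

end Cfsg.Agent.SUSixU43
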