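import Cfsg.Agent.SUSixU43.Check
import Cfsg.Agent.SUSixU43.DataCerts
import Cfsg.Agent.SUSixU43.Util

/-!
In the certified Sylow 3-subgroup of order 729 there is exactly one abelian subgroup of order 81.
-/

set_option autoImplicit false
set_option maxRecDepth 100000

namespace Cfsg.Agent.SUSixU43

open Equiv Cfsg.Agent.SchurBound

/-- The table of an element of the group of order 81. -/
def aT (k : ℕ) : ℕ := aElems.getD k 0

/-- A coset representative. -/
def rP (j : ℕ) : Perm (Fin 126) := J2.tabPerm 126 (reps.getD j (J2.idTab 126))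

/-- An element of the group of order 81, as given by its table. -/
def isA (g : Perm (Fin 126)) (k : ℕ) : Prop := ∀ x : Fin 126, (g x : ℕ) = J2.look (aT k) x

theorem reps_ok : allN (fun j => J2.isTab 126 (reps.getD j (J2.idTab 126))) 9 = true := by decide +kernel

theorem rP_apply {j : ℕ} (hj : j < 9) (x : Fin 126) :
    (rP j x : ℕ) = J2.look (reps.getD j (J2.idTab 126)).1 x := by
  rw [rP, J2.tabPerm_apply (allN_iff reps_ok j hj)]

theorem genP_look (i : Fin 11) (x : Fin 126) : (genP i x : ℕ) = J2.look (genTab i).1 x := by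
  have h := allN_iff genOK_true i i.2
  rw [Bool.and_eq_true] at h
  rw [genP_eq, J2.tabPerm_apply h.1]

theorem chASub_eq : chASub = [0, 1, 2, 3, 4] ∧ chPSub = [0, 1, 2, 3, 4, 5, 8] := by decide +kernel

/-- The check of the multiplication by the five generators. -/
def aMulOK : Bool :=
  allN (fun i => allN (fun k => Nat.blt ((aMul.getD i []).getD k 0) 81 && allN (fun x =>
    Nat.beq (J2.look (genTab i).1 (J2.look (aT k) x)) (J2.look (aT ((aMul.getD i []).getD k 0)) x))
      126) 81) 5

theorem aMulOK_true : aMulOK = true := by decide +kernel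

theorem aT_zero : allN (fun x => Nat.beq (J2.look (aT 0) x) x) 126 = true := by decide +kernel

theorem cube_gens : ∀ i : Fin 11, (i : ℕ) < 10 → ∀ x : Fin 126,
    J2.look (genTab i).1 (J2.look (genTab i).1 (J2.look (genTab i).1 x)) = x := by decide +kernel

theorem genP_inv {i : Fin 11} (h : (i : ℕ) < 10) : (genP i)⁻¹ = genP i * genP i := by
  refine inv_eq_of_mul_eq_one_right (Equiv.ext fun x => Fin.ext ?_)
  rw [Perm.mul_apply, Perm.mul_apply, genP_look, genP_look, genP_look, cube_gens i h, Perm.one_apply]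

/-- Every element of the group is in the list. -/
theorem exists_isA {g : Perm (Fin 126)} (hg : g ∈ grp chASub) : ∃ k < 81, isA g k := by
  have key : ∀ i : Fin 11, (i : ℕ) ∈ chASub → ∀ h : Perm (Fin 126),
      (∃ k < 81, isA h k) → ∃ k < 81, isA (genP i * h) k := by
    rintro i hi h ⟨k, hk, hhk⟩
    rw [chASub_eq.1] at hi
    have h5 : (i : ℕ) < 5 := by simp at hi; omega
    have e := allN_iff (allN_iff aMulOK_true i h5) k hk
    rw [Bool.and_eq_true] at e
    refine ⟨_, Nat.blt_eq.mp e.1, fun x => ?_⟩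
    rw [Perm.mul_apply, genP_look, hhk]
    exact Nat.eq_of_beq_eq_true (allN_iff e.2 x x.2)
  suffices H : ∀ h : Perm (Fin 126), (∃ k < 81, isA h k) → ∃ k < 81, isA (g * h) k by
    simpa using H 1 ⟨0, by norm_num, fun x => (Nat.eq_of_beq_eq_true (allN_iff aT_zero x x.2)).symm⟩
  induction hg using Subgroup.closure_induction_left with
  | one => simp
  | mul_left x hx y _ ih =>
    obtain ⟨i, hi, rfl⟩ := hx
    intro h hh
    rw [mul_assoc]
    exact key i hi _ (ih h hh)
  | inv_mul_cancel x hx y _ ih =>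
    obtain ⟨i, hi, rfl⟩ := hx
    intro h hh
    have h10 : (i : ℕ) < 10 := by rw [chASub_eq.1] at hi; simp at hi; omega
    rw [genP_inv h10, mul_assoc, mul_assoc]
    exact key i hi _ (key i hi _ (ih h hh))

/-- The number of an element of the group. -/
noncomputable def aIdx (g : grp chASub) : Fin 81 :=
  ⟨(exists_isA g.2).choose, (exists_isA g.2).choose_spec.1⟩

theorem aIdx_spec (g : grp chASub) : isA g.1 (aIdx g) := (exists_isA g.2).choose_spec.2

theorem aIdx_bij : Function.Bijective aIdx := by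
  refine Function.Injective.bijective_of_nat_card_le ?_ ?_
  · intro g h e
    exact Subtype.ext (Equiv.ext fun x => Fin.ext (by rw [aIdx_spec g x, aIdx_spec h x, e]))
  · rw [card_grpA, Nat.card_fin]

theorem isA_mem {g : Perm (Fin 126)} {k : ℕ} (hk : k < 81) (h : isA g k) : g ∈ grp chASub := by
  obtain ⟨a, ha⟩ := aIdx_bij.2 ⟨k, hk⟩
  have : g = a.1 := Equiv.ext fun x => Fin.ext (by rw [h x, aIdx_spec a x, ha])
  exact this ▸ a.2

/-! ### The monomial group normalises it -/

/-- The check of the normaliser. -/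
def normOK : Bool :=
  allN (fun i => allN (fun j => (List.range 81).any fun k => allN (fun x =>
    Nat.beq (J2.look (genTab i).1 (J2.look (genTab j).1 x)) (J2.look (aT k) (J2.look (genTab i).1 x)))
      126) 5) 9

theorem normOK_true : normOK = true := by decide +kernel

theorem M_sub_lt : ∀ i ∈ chMSub, i < 9 := by decide +kernel

theorem conj_mem_grpA {g a : Perm (Fin 126)} (hg : g ∈ grp chMSub) (ha : a ∈ grp chASub) :
    g * a * g⁻¹ ∈ grp chASub := by
  have key : ∀ i : Fin 11, (i : ℕ) ∈ chMSub → ∀ b ∈ grp chASub,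
      genP i * b * (genP i)⁻¹ ∈ grp chASub := by
    intro i hi b hb
    have : (grp chASub).map (MulAut.conj (genP i)).toMonoidHom ≤ grp chASub := by
      rw [grp, MonoidHom.map_closure, Subgroup.closure_le]
      rintro _ ⟨_, ⟨j, hj, rfl⟩, rfl⟩
      rw [chASub_eq.1] at hj
      have hj5 : (j : ℕ) < 5 := by simp at hj; omega
      obtain ⟨k, hk, hkx⟩ := List.any_eq_true.1 (allN_iff (allN_iff normOK_true i (M_sub_lt _ hi)) j hj5)
      refine isA_mem (List.mem_range.1 hk) fun x => ?_
      show (((genP i * genP j * (genP i)⁻¹) x : Fin 126) : ℕ) = _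
      obtain ⟨y, rfl⟩ := (genP i).surjective x
      rw [Perm.mul_apply, Perm.mul_apply, inv_app, genP_look, genP_look, genP_look]
      exact Nat.eq_of_beq_eq_true (allN_iff hkx y y.2)
    exact this ⟨b, hb, rfl⟩
  induction hg using Subgroup.closure_induction_left generalizing a with
  | one => simpa
  | mul_left x hx y _ ih =>
    obtain ⟨i, hi, rfl⟩ := hx
    have := key i hi _ (ih ha)
    simpa [mul_assoc] using this
  | inv_mul_cancel x hx y _ ih =>
    obtain ⟨i, hi, rfl⟩ := hx
    rw [genP_inv ((M_sub_lt _ hi).trans (by norm_num))]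
    have := key i hi _ (key i hi _ (ih ha))
    simpa [mul_assoc] using this

/-! ### Uniqueness -/

/-- The check of the two generators outside. -/
def outOK : Bool :=
  allN (fun t => allN (fun j =>
    let p := (repMul.getD t []).getD j (0, 0)
    Nat.blt p.1 81 && Nat.blt p.2 9 && allN (fun x =>
      Nat.beq (J2.look (genTab (bif Nat.beq t 0 then 5 else 8)).1
        (J2.look (reps.getD j (J2.idTab 126)).1 x))
        (J2.look (aT p.1) (J2.look (reps.getD p.2 (J2.idTab 126)).1 x))) 126) 9) 2

theorem outOK_true : outOK = true := by decide +kernel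

theorem rP_zero : rP 0 = 1 := by
  have h : allN (fun x => Nat.beq (J2.look (reps.getD 0 (J2.idTab 126)).1 x) x) 126 = true := by
    decide +kernel
  refine Equiv.ext fun x => Fin.ext ?_
  rw [rP_apply (by norm_num)]
  exact Nat.eq_of_beq_eq_true (allN_iff h x x.2)

theorem P_sub_M : ∀ i ∈ chPSub, i ∈ chMSub := by decide +kernel

theorem exists_rep {g : Perm (Fin 126)} (hg : g ∈ grp chPSub) :
    ∃ a ∈ grp chASub, ∃ j < 9, g = a * rP j := by
  have key : ∀ i : Fin 11, (i : ℕ) ∈ chPSub → ∀ h : Perm (Fin 126),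
      (∃ a ∈ grp chASub, ∃ j < 9, h = a * rP j) →
      ∃ a ∈ grp chASub, ∃ j < 9, genP i * h = a * rP j := by
    rintro i hi h ⟨a, ha, j, hj, rfl⟩
    have hc := conj_mem_grpA (genP_mem i (P_sub_M _ hi)) ha
    rw [chASub_eq.2] at hi
    simp only [List.mem_cons, List.not_mem_nil, or_false] at hi
    by_cases h5 : (i : ℕ) < 5
    · exact ⟨genP i * a, mul_mem (genP_mem i (by rw [chASub_eq.1]; simp; omega)) ha, j, hj,
        (mul_assoc _ _ _).symm⟩
    obtain ⟨t, ht, hti⟩ : ∃ t < 2, (bif Nat.beq t 0 then 5 else 8) = (i : ℕ) := by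
      rcases hi with e | e | e | e | e | e | e <;> first | omega | skip
      · exact ⟨0, by norm_num, e.symm⟩
      · exact ⟨1, by norm_num, e.symm⟩
    have e := allN_iff (allN_iff outOK_true t ht) j hj
    simp only [Bool.and_eq_true, hti] at e
    obtain ⟨⟨hp1, hp2⟩, hx⟩ := e
    set p := (repMul.getD t []).getD j (0, 0)
    obtain ⟨c, hc2⟩ := aIdx_bij.2 ⟨p.1, Nat.blt_eq.mp hp1⟩
    refine ⟨genP i * a * (genP i)⁻¹ * c.1, mul_mem hc c.2, p.2, Nat.blt_eq.mp hp2, ?_⟩
    have e2 : genP i * rP j = c.1 * rP p.2 := Equiv.ext fun x => Fin.ext <| by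
      rw [Perm.mul_apply, Perm.mul_apply, genP_look, rP_apply hj, aIdx_spec c, hc2,
        rP_apply (Nat.blt_eq.mp hp2)]
      exact Nat.eq_of_beq_eq_true (allN_iff hx x x.2)
    rw [mul_assoc (genP i * a * (genP i)⁻¹), ← e2]
    group
  suffices H : ∀ h : Perm (Fin 126), (∃ a ∈ grp chASub, ∃ j < 9, h = a * rP j) →
      ∃ a ∈ grp chASub, ∃ j < 9, g * h = a * rP j by
    simpa using H 1 ⟨1, one_mem _, 0, by norm_num, by rw [rP_zero, mul_one]⟩
  induction hg using Subgroup.closure_induction_left with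
  | one => simp
  | mul_left x hx y _ ih =>
    obtain ⟨i, hi, rfl⟩ := hx
    intro h hh
    rw [mul_assoc]
    exact key i hi _ (ih h hh)
  | inv_mul_cancel x hx y _ ih =>
    obtain ⟨i, hi, rfl⟩ := hx
    intro h hh
    have h10 : (i : ℕ) < 10 := (M_sub_lt _ (P_sub_M _ hi)).trans (by norm_num)
    rw [genP_inv h10, mul_assoc, mul_assoc]
    exact key i hi _ (key i hi _ (ih h hh))

/-- Whether an element of the group commutes with a representative. -/
def commAR (k j : ℕ) : Bool :=
  allN (fun x => Nat.beq (J2.look (aT k) (J2.look (reps.getD j (J2.idTab 126)).1 x))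
    (J2.look (reps.getD j (J2.idTab 126)).1 (J2.look (aT k) x))) 126

/-- The check of the centralisers. -/
def centOK : Bool :=
  allN (fun j => Nat.beq j 0 || Nat.ble ((List.range 81).filter (fun k => commAR k j)).length 9) 9 &&
    Nat.ble ((List.range 81).filter (fun k => commAR k 3 && commAR k 1)).length 3

theorem centOK_true : centOK = true := by decide +kernel

theorem commAR_of_comm {a : grp chASub} {j : ℕ} (hj : j < 9) (h : a.1 * rP j = rP j * a.1) :
    commAR (aIdx a) j = true := by
  have key : ∀ x < 126, Nat.beq (J2.look (aT (aIdx a)) (J2.look (reps.getD j (J2.idTab 126)).1 x))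
      (J2.look (reps.getD j (J2.idTab 126)).1 (J2.look (aT (aIdx a)) x)) = true := by
    intro x hx
    have e := congrArg (fun g : Perm (Fin 126) => (g ⟨x, hx⟩ : ℕ)) h
    have hs : ∀ y : Fin 126, (a.1 y : ℕ) = J2.look (aT (aIdx a)) y := aIdx_spec a
    simp only [Perm.mul_apply, hs, rP_apply hj] at e
    rw [Nat.beq_eq]
    exact e
  have all_of : ∀ n ≤ 126, allN (fun x => Nat.beq
      (J2.look (aT (aIdx a)) (J2.look (reps.getD j (J2.idTab 126)).1 x))
      (J2.look (reps.getD j (J2.idTab 126)).1 (J2.look (aT (aIdx a)) x))) n = true := by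
    intro n hn
    induction n with
    | zero => rfl
    | succ n ih =>
      exact Bool.and_eq_true_iff.2 ⟨key n (by omega), ih (by omega)⟩
  exact all_of 126 le_rfl

theorem card_le_filter (D : Subgroup (Perm (Fin 126))) (hD : D ≤ grp chASub) (p : ℕ → Bool)
    (h : ∀ a : grp chASub, (a : Perm (Fin 126)) ∈ D → p (aIdx a) = true) :
    Nat.card D ≤ ((List.range 81).filter p).length := by
  rw [← List.toFinset_card_of_nodup (List.nodup_range.filter p), ← Nat.card_eq_finsetCard]
  refine Nat.card_le_card_of_injective (fun d : D => ⟨(aIdx ⟨d.1, hD d.2⟩ : ℕ),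
    List.mem_toFinset.2 (List.mem_filter.2 ⟨List.mem_range.2 (aIdx _).2, h _ d.2⟩)⟩) ?_
  intro d e hde
  have := aIdx_bij.1 (Fin.ext (congrArg Subtype.val hde :))
  exact Subtype.ext (congrArg Subtype.val this :)

theorem comm_gens : ∀ i j : Fin 11, (i : ℕ) < 5 → (j : ℕ) < 5 → ∀ x : Fin 126,
    J2.look (genTab i).1 (J2.look (genTab j).1 x) = J2.look (genTab j).1 (J2.look (genTab i).1 x) := by
  decide +kernel

theorem comm_grpA {x y : Perm (Fin 126)} (hx : x ∈ grp chASub) (hy : y ∈ grp chASub) :
    x * y = y * x := by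
  have h1 : grp chASub ≤ Subgroup.centralizer (genSet chASub) := by
    refine (Subgroup.closure_le _).2 ?_
    rintro _ ⟨i, hi, rfl⟩ _ ⟨j, hj, rfl⟩
    rw [chASub_eq.1] at hi hj
    refine Equiv.ext fun z => Fin.ext ?_
    rw [Perm.mul_apply, Perm.mul_apply, genP_look, genP_look, genP_look, genP_look]
    exact comm_gens j i (by simp at hj; omega) (by simp at hi; omega) z
  have h2 : grp chASub ≤ Subgroup.centralizer (grp chASub : Set (Perm (Fin 126))) :=
    (Subgroup.closure_le _).2 fun g hg z hz => (h1 hz g hg).symm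
  exact h2 hy x hx

/-- The only abelian subgroup of order 81. -/
theorem eq_grpA {B : Subgroup (Perm (Fin 126))} (hB : B ≤ grp chPSub) (hcard : Nat.card B = 81)
    (hcomm : ∀ x ∈ B, ∀ y ∈ B, x * y = y * x) : B = grp chASub := by
  choose a ha j hj he using fun b : B => exists_rep (hB b.2)
  suffices hsub : B ≤ grp chASub from Subgroup.eq_of_le_of_card_ge hsub (by rw [card_grpA, hcard])
  by_contra hne
  obtain ⟨b0, hb0, hb0A⟩ := SetLike.not_le_iff_exists.1 hne
  let D := B ⊓ grp chASub
  have hD : ∀ b : B, ∀ d : grp chASub, (d : Perm (Fin 126)) ∈ D →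
      d.1 * rP (j b) = rP (j b) * d.1 := by
    intro b d hd
    have h1 := hcomm _ hd.1 _ b.2
    have h2 : d.1 * a b = a b * d.1 := comm_grpA d.2 (ha b)
    rw [he b, ← mul_assoc, h2, mul_assoc, mul_assoc] at h1
    exact mul_left_cancel h1
  have hj0 : j ⟨b0, hb0⟩ ≠ 0 := fun h => hb0A (by
    have := he ⟨b0, hb0⟩
    rw [h, rP_zero, mul_one] at this
    exact (show b0 = a ⟨b0, hb0⟩ from this).symm ▸ ha ⟨b0, hb0⟩)
  have h := centOK_true
  simp only [centOK, Bool.and_eq_true] at h
  have hle : ∀ b : B, j b ≠ 0 → Nat.card D ≤ 9 := fun b hb0' => by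
    refine (card_le_filter D inf_le_right (fun k => commAR k (j b))
      fun d hd => commAR_of_comm (hj b) (hD b d hd)).trans ?_
    have := allN_iff h.1 (j b) (hj b)
    rw [Bool.or_eq_true] at this
    exact Nat.le_of_ble_eq_true (this.resolve_left fun e => hb0' (Nat.eq_of_beq_eq_true e))
  classical
  let J : Finset (Fin 9) := Finset.univ.filter fun i => ∃ b : B, j b = i
  have hbd : Nat.card B ≤ Nat.card D * J.card := by
    choose r hr using fun i : J => (Finset.mem_filter.1 i.2).2
    let idx : B → J := fun b => ⟨⟨j b, hj b⟩, Finset.mem_filter.2 ⟨Finset.mem_univ _, b, rfl⟩⟩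
    have hmem : ∀ b : B, b.1 * (r (idx b)).1⁻¹ ∈ D := fun b => by
      refine Subgroup.mem_inf.2 ⟨mul_mem b.2 (inv_mem (r (idx b)).2), ?_⟩
      rw [he b, he (r (idx b)), hr (idx b)]
      show a b * rP (j b) * (a (r (idx b)) * rP (j b))⁻¹ ∈ grp chASub
      rw [mul_inv_rev, ← mul_assoc, mul_inv_cancel_right]
      exact mul_mem (ha b) (inv_mem (ha _))
    rw [← Nat.card_eq_finsetCard, ← Nat.card_prod]
    refine Nat.card_le_card_of_injective (fun b => (⟨_, hmem b⟩, idx b)) ?_
    intro b b' e
    simp only [Prod.mk.injEq] at e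
    have e1 := congrArg Subtype.val e.1
    simp only [e.2] at e1
    exact Subtype.ext (mul_right_cancel e1)
  have h9 := hle ⟨b0, hb0⟩ hj0
  have hJ : J.card ≤ 9 := (Finset.card_le_univ J).trans (by simp)
  have hfull : J = Finset.univ := by
    refine Finset.eq_univ_of_card _ ?_
    simp only [Fintype.card_fin]
    nlinarith
  obtain ⟨b1, hb1⟩ := (Finset.mem_filter.1 (show (3 : Fin 9) ∈ J by rw [hfull]; exact Finset.mem_univ _)).2
  obtain ⟨b2, hb2⟩ := (Finset.mem_filter.1 (show (1 : Fin 9) ∈ J by rw [hfull]; exact Finset.mem_univ _)).2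
  have h3 : Nat.card D ≤ 3 := by
    refine (card_le_filter D inf_le_right (fun k => commAR k 3 && commAR k 1) fun d hd => ?_).trans
      (Nat.le_of_ble_eq_true h.2)
    rw [Bool.and_eq_true]
    have e1 := hD b1 d hd
    have e2 := hD b2 d hd
    rw [hb1] at e1
    rw [hb2] at e2
    exact ⟨commAR_of_comm (j := 3) (by norm_num) e1, commAR_of_comm (j := 1) (by norm_num) e2⟩
  nlinarith

end Cfsg.Agent.SUSixU43
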