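import Cfsg.Agent.SUSixU43.Model
import Cfsg.Agent.PSU62Mult.Code

/-!
Upper bounds for the stabilisers of the 126-set and of the 45 points, by orbit and stabiliser along
six base points.
-/

set_option autoImplicit false
set_option maxRecDepth 100000

namespace Cfsg.Agent.SUSixU43

open Equiv Cfsg.Agent.SchurBound Cfsg.Agent.SporB.FischerU Cfsg.Agent.GFour25

theorem card_le_orbit {α : Type} [DecidableEq α] [Finite α] (H : Subgroup (Perm α)) (x : α) (C : Finset α)
    (h : ∀ g ∈ H, g x ∈ C) :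
    Nat.card H ≤ C.card * Nat.card ↥(H ⊓ MulAction.stabilizer (Perm α) x) := by
  rw [← Nat.card_congr (MulAction.orbitProdStabilizerEquivGroup H x), Nat.card_prod]
  refine Nat.mul_le_mul ?_ (le_of_eq ?_)
  · rw [← Nat.card_eq_finsetCard C]
    refine Nat.card_le_card_of_injective (fun y => ⟨y.1, ?_⟩) ?_
    · obtain ⟨g, hg⟩ := y.2
      exact hg ▸ h g.1 g.2
    · intro y z e
      exact Subtype.ext (congrArg Subtype.val e :)
  · exact Nat.card_congr
      { toFun := fun g => ⟨g.1.1, g.1.2, g.2⟩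
        invFun := fun g => ⟨⟨g.1, g.2.1⟩, g.2.2⟩
        left_inv := fun _ => rfl
        right_inv := fun _ => rfl }

/-- Zero test. -/
def f4z (c : F4) : Bool := decide (c = 0)

/-- The invariant of a triangle. -/
noncomputable def tri (a b c : Fin 693) : F4 := hm a b * hm b c * hm c a

/-- The pattern check of a candidate against a list of earlier points. -/
noncomputable def candOK : List (Fin 693) → Fin 693 → Fin 693 → Bool
  | [], _, _ => true
  | a :: pre, b, k =>
    (f4z (hm a b) == f4z (hm a k)) && (decide (a = b) == decide (a = k)) &&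
      pre.all (fun a' => decide (tri a a' b = tri a a' k)) && candOK pre b k

/-- The first base points. -/
def preB (B : List ℕ) (n : ℕ) : List (Fin 693) := (List.range n).map (bpt B)

/-- The candidates of a level. -/
noncomputable def cands (B : List ℕ) (p : Fin 693 → Bool) (n : ℕ) : Finset (Fin 693) :=
  Finset.univ.filter fun k => p k && candOK (preB B n) (bpt B n) k

/-- The level of a group fixing the first base points. -/
noncomputable def stabB (H : Subgroup P693) (B : List ℕ) : ℕ → Subgroup P693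
  | 0 => H
  | n + 1 => stabB H B n ⊓ MulAction.stabilizer P693 (bpt B n)

theorem stabB_le (H : Subgroup P693) (B : List ℕ) : ∀ n, stabB H B n ≤ H
  | 0 => le_rfl
  | n + 1 => inf_le_left.trans (stabB_le H B n)

theorem stabB_fix {H : Subgroup P693} {B : List ℕ} : ∀ {n : ℕ} {g : P693}, g ∈ stabB H B n →
    ∀ i < n, g (bpt B i) = bpt B i
  | n + 1, g, hg, i, hi => by
    rcases Nat.lt_succ_iff_lt_or_eq.1 hi with h | rfl
    · exact stabB_fix hg.1 i h
    · exact hg.2

theorem f4_prod : ∀ a b : F4, a ≠ 0 → b ≠ 0 → a * b ^ 2 * (b * a ^ 2) = 1 := by decide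

theorem hm_zero_iff (s : SUSix) (a b : Fin 693) :
    hm (pointHom s a) (pointHom s b) = 0 ↔ hm a b = 0 := by
  obtain ⟨ca, hca, ha⟩ := act_pt s a
  obtain ⟨cb, hcb, hb⟩ := act_pt s b
  rw [← hm_act s a b ca cb ha hb]
  simp [hca, hcb]

theorem f4_tri : ∀ a b c : F4, a ≠ 0 → b ≠ 0 → c ≠ 0 →
    a * b ^ 2 * (b * c ^ 2) * (c * a ^ 2) = 1 := by
  decide

theorem tri_act (s : SUSix) (a b c : Fin 693) :
    tri (pointHom s a) (pointHom s b) (pointHom s c) = tri a b c := by
  obtain ⟨ca, hca, ha⟩ := act_pt s a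
  obtain ⟨cb, hcb, hb⟩ := act_pt s b
  obtain ⟨cc, hcc, hc⟩ := act_pt s c
  unfold tri
  rw [← hm_act s a b ca cb ha hb, ← hm_act s b c cb cc hb hc, ← hm_act s c a cc ca hc ha]
  calc _ = ca * cb ^ 2 * (cb * cc ^ 2) * (cc * ca ^ 2) *
      (hm (pointHom s a) (pointHom s b) * hm (pointHom s b) (pointHom s c) *
        hm (pointHom s c) (pointHom s a)) := by rw [f4_tri _ _ _ hca hcb hcc, one_mul]
    _ = _ := by ring

theorem candOK_of_fix {g : P693} (hg : g ∈ Gb) :
    ∀ (pre : List (Fin 693)) (b : Fin 693), (∀ a ∈ pre, g a = a) → candOK pre b (g b) = true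
  | [], _, _ => rfl
  | a :: pre, b, h => by
    obtain ⟨s, rfl⟩ := hg
    have ha := h a List.mem_cons_self
    have hz : f4z (hm a (pointHom s b)) = f4z (hm a b) := by
      have := hm_zero_iff s a b
      rw [ha] at this
      simpa [f4z] using this
    have he : decide (a = pointHom s b) = decide (a = b) := by
      refine decide_eq_decide.2 ⟨fun e => ?_, fun e => by rw [← e, ha]⟩
      exact (pointHom s).injective (ha.trans e)
    rw [candOK, hz, he, candOK_of_fix ⟨s, rfl⟩ pre b fun x hx => h x (List.mem_cons_of_mem _ hx)]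
    simp only [beq_self_eq_true, Bool.true_and, Bool.and_true, List.all_eq_true, decide_eq_true_eq]
    intro a' ha'
    have h3 := tri_act s a a' b
    rw [ha, h a' (List.mem_cons_of_mem _ ha')] at h3
    exact h3.symm

theorem stabB_step (p : Fin 693 → Bool) (B : List ℕ) (hp : ∀ i : Fin 6, p (bpt B i) = true) (n : ℕ)
    (hn : n < 6) : Nat.card ↥(stabB (Gb ⊓ keep p) B n) ≤
      (cands B p n).card * Nat.card ↥(stabB (Gb ⊓ keep p) B (n + 1)) := by
  refine card_le_orbit _ (bpt B n) _ fun g hg => Finset.mem_filter.2 ⟨Finset.mem_univ _, ?_⟩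
  have hgH := stabB_le _ _ _ hg
  rw [Bool.and_eq_true]
  refine ⟨(hgH.2 _).trans (hp ⟨n, hn⟩), candOK_of_fix hgH.1 _ _ fun a ha => ?_⟩
  obtain ⟨i, hi, rfl⟩ := List.mem_map.1 ha
  exact stabB_fix hg i (List.mem_range.1 hi)

theorem card_stab_six (p : Fin 693 → Bool) {B C : List ℕ} {E : List (ℕ × ℕ)} (hs : spanOK B C)
    (he : edgeOK B E) : Nat.card ↥(stabB (Gb ⊓ keep p) B 6) = 1 := by
  rw [Subgroup.card_eq_one, Subgroup.eq_bot_iff_forall]
  exact fun g hg => eq_one_of_fix hs he (stabB_le _ _ _ hg).1 fun i => stabB_fix hg i i.2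

theorem countOne : ∀ n : Fin 6, (cands baseOne k1 n).card ≤ countsOne.getD n 0 := by
  unfold cands; decide +kernel

theorem countTwo : ∀ n : Fin 6, (cands baseTwo k45 n).card ≤ countsTwo.getD n 0 := by
  unfold cands; decide +kernel

theorem baseTwo_k45 : ∀ i : Fin 6, k45 (bpt baseTwo i) = true := by decide +kernel

/-- The stabiliser of the 126-set is at most twice the certified group. -/
theorem card_S1_le : Nat.card S1 ≤ 6531840 := by
  have s0 := stabB_step k1 baseOne baseOne_k1
  have h0 := s0 0 (by norm_num); have h1 := s0 1 (by norm_num); have h2 := s0 2 (by norm_num)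
  have h3 := s0 3 (by norm_num); have h4 := s0 4 (by norm_num); have h5 := s0 5 (by norm_num)
  rw [card_stab_six k1 spanOne edgeOne, mul_one] at h5
  have c0 := countOne 0; have c1 := countOne 1; have c2 := countOne 2
  have c3 := countOne 3; have c4 := countOne 4; have c5 := countOne 5
  simp only [countsOne] at c0 c1 c2 c3 c4 c5
  refine (h0.trans (Nat.mul_le_mul c0 (h1.trans (Nat.mul_le_mul c1 (h2.trans
    (Nat.mul_le_mul c2 (h3.trans (Nat.mul_le_mul c3 (h4.trans
      (Nat.mul_le_mul c4 (h5.trans c5))))))))))).trans ?_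
  decide +kernel

/-- The data of a candidate to be excluded: the witness fixes five base points and moves it to the
sixth base point, with a multiplier that the determinant does not allow. -/
noncomputable def bogusOK (c : ℕ × ℕ) (l : F4) : Prop :=
  l ≠ 0 ∧ PSU62Mult.det2 6 (PSU62Mult.readM c.2) ≠ 1 ∧
    (∀ i : Fin 5, ∀ m : Fin 6, (PSU62Mult.readM c.2).mulVec (pt (bpt baseTwo i)) m =
      pt (bpt baseTwo i) m) ∧
    (∀ m : Fin 6, (PSU62Mult.readM c.2).mulVec (pt (bpt [c.1] 0)) m = l * pt (bpt baseTwo 5) m) ∧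
    hm (bpt [c.1] 0) (bpt baseTwo 0) = l * hm (bpt baseTwo 5) (bpt baseTwo 0)

theorem bogus_check : ∀ c ∈ bogusTwo, ∃ l : F4, bogusOK c l := by unfold bogusOK; decide +kernel

theorem cands_five : ∀ k : Fin 693, k ∈ cands baseTwo k45 5 →
    k = bpt baseTwo 5 ∨ ∃ c ∈ bogusTwo, k = bpt [c.1] 0 := by
  unfold cands; decide +kernel

theorem edges_head : edgesTwo.take 4 = [(2, 0), (1, 2), (3, 1), (4, 2)] ∧
    edgesTwo.getD 4 (0, 0) = (5, 0) := by decide +kernel

theorem f4_last : ∀ a b h l : F4, a ≠ 0 → b ≠ 0 → h ≠ 0 → l ≠ 0 →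
    a * (b ^ 2 * (l * h)) = h → a * l = b := by
  decide

theorem f4_six : ∀ c : F4, c ≠ 0 → c ^ 6 = 1 := by decide

theorem last_fixed {g : P693} (hg : g ∈ stabB S45 baseTwo 5) : g (bpt baseTwo 5) = bpt baseTwo 5 := by
  have hH := stabB_le _ _ _ hg
  have hmem : g (bpt baseTwo 5) ∈ cands baseTwo k45 5 := by
    refine Finset.mem_filter.2 ⟨Finset.mem_univ _, ?_⟩
    rw [Bool.and_eq_true]
    refine ⟨(hH.2 _).trans (baseTwo_k45 5), candOK_of_fix hH.1 _ _ fun a ha => ?_⟩
    obtain ⟨i, hi, rfl⟩ := List.mem_map.1 ha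
    exact stabB_fix hg i (List.mem_range.1 hi)
  rcases cands_five _ hmem with h | ⟨c, hc, h⟩
  · exact h
  exfalso
  obtain ⟨l, hl, hdet, hfix, hlast, hh⟩ := bogus_check c hc
  obtain ⟨s, rfl⟩ := hH.1
  choose m hm0 hm using fun i : ℕ => act_pt s (bpt baseTwo i)
  have hedge : ∀ i j : ℕ, i < 5 → j < 5 → (i, j) ∈ edgesTwo → m i = m j := fun i j hi hj he => by
    have e := hm_act s _ _ _ _ (hm i) (hm j)
    rw [stabB_fix hg i hi, stabB_fix hg j hj] at e
    exact f4_pair _ _ _ _ (hm0 _) (hm0 _) ((edgeTwo.1 _ he).2.2) e rfl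
  have m2 := hedge 2 0 (by norm_num) (by norm_num) (by decide +kernel)
  have m1 := hedge 1 2 (by norm_num) (by norm_num) (by decide +kernel)
  have m3 := hedge 3 1 (by norm_num) (by norm_num) (by decide +kernel)
  have m4 := hedge 4 2 (by norm_num) (by norm_num) (by decide +kernel)
  have m5 : m 5 * l = m 0 := by
    have e := hm_act s _ _ _ _ (hm 5) (hm 0)
    rw [h, stabB_fix hg 0 (by norm_num), hh] at e
    exact f4_last _ _ _ _ (hm0 _) (hm0 _)
      ((edgeTwo.1 (5, 0) (by decide +kernel)).2.2) hl e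
  have hM : PSU62Mult.readM c.2 * mS s = m 0 • 1 := by
    refine eq_scalar spanTwo _ _ fun i => ?_
    have e : (mS s).mulVec (pt (bpt baseTwo i)) = m i • pt (pointHom s (bpt baseTwo i)) := hm i
    rw [← Matrix.mulVec_mulVec, e, Matrix.mulVec_smul]
    by_cases hi : (i : ℕ) < 5
    · rw [stabB_fix hg i hi, funext (hfix ⟨i, hi⟩)]
      have : m (i : ℕ) = m 0 := by
        generalize hn : (i : ℕ) = n at hi ⊢
        interval_cases n
        · rfl
        · exact m1.trans m2
        · exact m2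
        · exact m3.trans (m1.trans m2)
        · exact m4.trans m2
      rw [this]
    · have hi5 : (i : ℕ) = 5 := by omega
      rw [hi5, h]
      rw [show (PSU62Mult.readM c.2).mulVec (pt (bpt [c.1] 0)) = l • pt (bpt baseTwo 5) from
        funext hlast, smul_smul, m5]
  have hd := congrArg Matrix.det hM
  rw [Matrix.det_mul, Matrix.det_smul, Matrix.det_one, mul_one, Fintype.card_fin,
    f4_six _ (hm0 0), s.1.2, mul_one, ← PSU62Mult.det2_eq] at hd
  exact hdet hd

theorem card_S45_le : Nat.card S45 ≤ 58320 := by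
  have s0 := stabB_step k45 baseTwo baseTwo_k45
  have h0 := s0 0 (by norm_num); have h1 := s0 1 (by norm_num); have h2 := s0 2 (by norm_num)
  have h3 := s0 3 (by norm_num); have h4 := s0 4 (by norm_num)
  have h5 : Nat.card ↥(stabB S45 baseTwo 5) ≤ 1 := by
    refine le_of_le_of_eq (Subgroup.card_le_of_le (fun g hg => ?_))
      (card_stab_six k45 spanTwo edgeTwo)
    exact ⟨hg, last_fixed hg⟩
  have c0 := countTwo 0; have c1 := countTwo 1; have c2 := countTwo 2
  have c3 := countTwo 3; have c4 := countTwo 4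
  simp only [countsTwo] at c0 c1 c2 c3 c4
  refine (h0.trans (Nat.mul_le_mul c0 (h1.trans (Nat.mul_le_mul c1 (h2.trans
    (Nat.mul_le_mul c2 (h3.trans (Nat.mul_le_mul c3 (h4.trans
      (Nat.mul_le_mul c4 h5))))))))) ).trans ?_
  decide +kernel

/-- The stabiliser of the 45 points is the certified group; it preserves every class. -/
theorem S45_eq : S45 = GS :=
  (Subgroup.eq_of_le_of_card_ge (le_inf GS_le_Gb (GS_le_cls.trans keep_cls_le_k45))
    (card_GS ▸ card_S45_le)).symm

end Cfsg.Agent.SUSixU43
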