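import Cfsg.Agent.SUSixU43.DataPoints
import Cfsg.Agent.SUSixU43.DataChains
import Cfsg.Agent.SchurBound.CoresCert

/-!
Tables of permutations of the 126 points and the checks of the generators and chains.
-/

set_option autoImplicit false
set_option maxRecDepth 100000

namespace Cfsg.Agent.SUSixU43

open Equiv Cfsg.Agent.SchurBound

/-- The table of a transvection. -/
def tvTab (c : ℕ) : J2.Tab := (tvTabs.getD c 0, tvTabs.getD c 0)

/-- The transvection as a permutation of the 126 points. -/
def tvP (c : ℕ) : Perm (Fin 126) := J2.tabPerm 126 (tvTab c)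

theorem tvTab_ok : allN (fun c => J2.isTab 126 (tvTab c)) 126 = true := by decide +kernel

theorem tvP_apply {c : ℕ} (hc : c < 126) (x : Fin 126) : (tvP c x : ℕ) = J2.look (tvTabs.getD c 0) x := by
  rw [tvP, J2.tabPerm_apply (allN_iff tvTab_ok c hc)]
  rfl

theorem tvP_sq {c : ℕ} (hc : c < 126) : tvP c * tvP c = 1 := by
  refine Equiv.ext fun x => Fin.ext ?_
  rw [Perm.mul_apply, tvP_apply hc, tvP_apply hc]
  exact ((J2.isTab_spec (allN_iff tvTab_ok c hc) x.2).2.2.1)

/-- The pair of a generator. -/
def pairOf (i : ℕ) : ℕ × ℕ := pairs.getD i (0, 0)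

/-- The table of a generator; the last one is the transposition. -/
def genTab (i : ℕ) : J2.Tab := genTabs.getD i (J2.idTab 126)

/-- A generator. -/
def genP (i : Fin 11) : Perm (Fin 126) :=
  if (i : ℕ) < 10 then (tvP (pairOf i).1 * tvP (pairOf i).2) ^ 2 else tvP sigmaI

theorem pairs_lt : ∀ i : Fin 10, (pairOf i).1 < 126 ∧ (pairOf i).2 < 126 := by decide +kernel

/-- The check of the generators. -/
def genOK : Bool :=
  allN (fun i => J2.isTab 126 (genTab i) && allN (fun x =>
    Nat.beq (J2.look (genTab i).1 x)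
      (bif Nat.blt i 10 then
        J2.look (tvTabs.getD (pairOf i).1 0) (J2.look (tvTabs.getD (pairOf i).2 0)
          (J2.look (tvTabs.getD (pairOf i).1 0) (J2.look (tvTabs.getD (pairOf i).2 0) x)))
       else J2.look (tvTabs.getD sigmaI 0) x)) 126) 11

theorem genOK_true : genOK = true := by decide +kernel

theorem sigmaI_lt : sigmaI < 126 := by decide +kernel

theorem genP_eq (i : Fin 11) : genP i = J2.tabPerm 126 (genTab i) := by
  have h := allN_iff genOK_true i i.2
  rw [Bool.and_eq_true] at h
  refine Equiv.ext fun x => Fin.ext ?_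
  rw [J2.tabPerm_apply h.1, Nat.eq_of_beq_eq_true (allN_iff h.2 x x.2), genP]
  by_cases hi : (i : ℕ) < 10
  · obtain ⟨h1, h2⟩ := pairs_lt ⟨i, hi⟩
    rw [if_pos hi, show Nat.blt (i : ℕ) 10 = true from Nat.blt_eq.mpr hi, cond_true, pow_two]
    simp only [Perm.mul_apply, tvP_apply h1, tvP_apply h2]
  · rw [if_neg hi, show Nat.blt (i : ℕ) 10 = false from
      Bool.eq_false_iff.2 fun e => hi (Nat.blt_eq.mp e), cond_false, tvP_apply sigmaI_lt]

/-- The image of a point under a word in the generators. -/
def appW : List ℕ → ℕ → ℕ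
  | [], x => x
  | i :: w, x => J2.look (genTab i).1 (appW w x)

/-- The chain is generated by the listed generators. -/
def wordsOK (Ls : List J2.Lvl) (W : List (List ℕ)) (sub : List ℕ) : Bool :=
  sub.all (fun i => Nat.blt i 11 && (J2.gensOf Ls).any fun t => Nat.beq t.1 (genTab i).1) &&
  Nat.beq W.length (J2.gensOf Ls).length &&
  ((J2.gensOf Ls).zip W).all fun p =>
    p.2.all (fun i => sub.contains i) && allN (fun x => Nat.beq (J2.look p.1.1 x) (appW p.2 x)) 126

/-- The generators with index in a list. -/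
def genSet (sub : List ℕ) : Set (Perm (Fin 126)) := {g | ∃ i : Fin 11, (i : ℕ) ∈ sub ∧ genP i = g}

/-- The group generated by some of the generators. -/
def grp (sub : List ℕ) : Subgroup (Perm (Fin 126)) := Subgroup.closure (genSet sub)

theorem grp_eq_chainGroup {Ls : List J2.Lvl} {W : List (List ℕ)} {sub : List ℕ}
    (hch : J2.chainOK 126 Ls = true) (h : wordsOK Ls W sub = true) :
    grp sub = J2.chainGroup 126 Ls := by
  simp only [wordsOK, Bool.and_eq_true, List.all_eq_true, List.any_eq_true, Nat.blt_eq,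
    Nat.beq_eq] at h
  obtain ⟨⟨hsub, hlen⟩, hW⟩ := h
  have hgens := J2.gensOf_isTab hch
  apply le_antisymm
  · refine (Subgroup.closure_le _).2 ?_
    rintro _ ⟨i, hi, rfl⟩
    obtain ⟨-, t, ht, hte⟩ := hsub i hi
    have he : genP i = J2.tabPerm 126 t := by
      have h1 := allN_iff genOK_true i i.2
      rw [Bool.and_eq_true] at h1
      rw [genP_eq]
      refine Equiv.ext fun x => Fin.ext ?_
      rw [J2.tabPerm_apply h1.1, J2.tabPerm_apply (hgens t ht), hte]
    rw [he]
    exact Subgroup.subset_closure (List.mem_map.2 ⟨t, ht, rfl⟩)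
  · refine (Subgroup.closure_le _).2 ?_
    intro p hp
    obtain ⟨t, ht, rfl⟩ := List.mem_map.1 hp
    obtain ⟨k, hk, rfl⟩ := List.getElem_of_mem ht
    have hmem : ((J2.gensOf Ls)[k], W[k]'(hlen ▸ hk)) ∈ (J2.gensOf Ls).zip W := by
      rw [List.mem_iff_getElem]
      exact ⟨k, by rw [List.length_zip, hlen, Nat.min_self]; exact hk, by rw [List.getElem_zip]⟩
    obtain ⟨hin, heq⟩ := hW _ hmem
    have key : ∀ w : List ℕ, (∀ i ∈ w, i ∈ sub) →
        ∃ g ∈ grp sub, ∀ x : Fin 126, (g x : ℕ) = appW w x := by
      intro w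
      induction w with
      | nil => exact fun _ => ⟨1, one_mem _, fun x => rfl⟩
      | cons i w ih =>
        intro hw
        obtain ⟨g, hg, hgx⟩ := ih fun j hj => hw j (List.mem_cons_of_mem _ hj)
        have hi := (hsub i (hw i List.mem_cons_self)).1
        refine ⟨genP ⟨i, hi⟩ * g, mul_mem (Subgroup.subset_closure
          ⟨⟨i, hi⟩, hw i List.mem_cons_self, rfl⟩) hg, fun x => ?_⟩
        have h1 := allN_iff genOK_true i hi
        rw [Bool.and_eq_true] at h1
        rw [Perm.mul_apply, genP_eq, J2.tabPerm_apply h1.1, hgx]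
        rfl
    obtain ⟨g, hg, hgx⟩ := key _ (fun i hi => by simpa using hin i hi)
    have he : J2.tabPerm 126 (J2.gensOf Ls)[k] = g := by
      refine Equiv.ext fun x => Fin.ext ?_
      rw [J2.tabPerm_apply (hgens _ ht), hgx]
      exact Nat.eq_of_beq_eq_true (allN_iff heq x x.2)
    rw [he]
    exact hg

theorem chA_ok : J2.chainOK 126 chA = true := by decide +kernel
theorem chP_ok : J2.chainOK 126 chP = true := by decide +kernel
theorem chM_ok : J2.chainOK 126 chM = true := by decide +kernel
theorem chS_ok : J2.chainOK 126 chS = true := by decide +kernel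
theorem chK0_ok : J2.levelOK 126 chK0 [chK1, chK2, chK3] = true := by decide +kernel
theorem chKrest_ok : J2.chainOK 126 [chK1, chK2, chK3] = true := by decide +kernel

theorem chK_ok : J2.chainOK 126 chK = true := by
  rw [chK, J2.chainOK, chK0_ok, chKrest_ok]
  rfl

theorem chA_words : wordsOK chA chAW chASub = true := by decide +kernel
theorem chP_words : wordsOK chP chPW chPSub = true := by decide +kernel
theorem chM_words : wordsOK chM chMW chMSub = true := by decide +kernel
theorem chS_words : wordsOK chS chSW chSSub = true := by decide +kernel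
theorem chK_words : wordsOK chK chKW chKSub = true := by decide +kernel

theorem card_grp {Ls : List J2.Lvl} {W : List (List ℕ)} {sub : List ℕ} {n : ℕ}
    (hch : J2.chainOK 126 Ls = true) (h : wordsOK Ls W sub = true)
    (hn : (Ls.map fun L => L.trans.length).prod = n) : Nat.card (grp sub) = n := by
  rw [grp_eq_chainGroup hch h, (J2.chain_spec hch).1, hn]

theorem card_grpA : Nat.card (grp chASub) = 81 := card_grp chA_ok chA_words (by decide +kernel)
theorem card_grpP : Nat.card (grp chPSub) = 729 := card_grp chP_ok chP_words (by decide +kernel)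
theorem card_grpM : Nat.card (grp chMSub) = 29160 := card_grp chM_ok chM_words (by decide +kernel)
theorem card_grpS : Nat.card (grp chSSub) = 58320 := card_grp chS_ok chS_words (by decide +kernel)
theorem card_grpK : Nat.card (grp chKSub) = 3265920 := card_grp chK_ok chK_words (by decide +kernel)

theorem genP_mem {sub : List ℕ} (i : Fin 11) (h : (i : ℕ) ∈ sub) : genP i ∈ grp sub :=
  Subgroup.subset_closure ⟨i, h, rfl⟩

theorem grp_mono {s t : List ℕ} (h : ∀ i ∈ s, i ∈ t) : grp s ≤ grp t :=
  Subgroup.closure_mono fun _ ⟨i, hi, e⟩ => ⟨i, h i hi, e⟩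

end Cfsg.Agent.SUSixU43
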