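import Cfsg.Agent.SUSixU43.Model

/-!
Finite checks for the classification of the copies of the simple group.
-/

set_option autoImplicit false
set_option maxRecDepth 100000

namespace Cfsg.Agent.SUSixU43

open Equiv Cfsg.Agent.SchurBound Cfsg.Agent.SporB.FischerU Cfsg.Agent.GFour25

/-- A generator of the group of order 81. -/
def aGen (i : Fin 5) : Fin 11 := Fin.castLE (by norm_num) i

/-- The orbit of a point of weight two. -/
noncomputable def orbL (x : Fin 693) : List (Fin 693) :=
  ((x :: (List.finRange 5).map fun i => moveG (aGen i) x) ++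
    (List.finRange 5).map fun i => moveG (aGen i) (moveG (aGen i) x)).dedup

theorem orbL_check : ∀ x : Fin 693, k45 x = true → x ∈ orbL x ∧ (orbL x).length ≤ 3 ∧
    ∀ y ∈ orbL x, ∀ i : Fin 5, moveG (aGen i) y ∈ orbL x := by
  unfold orbL; decide +kernel

theorem four_points : ∀ x : Fin 693, k45 x = false → ∃ i j : Fin 5,
    ([x, moveG (aGen i) x, moveG (aGen i) (moveG (aGen i) x), moveG (aGen j) x]).Nodup := by
  decide +kernel

/-- The effect of the diagonal automorphism. -/
def dFun (k : Fin 693) : Fin 693 := ⟨getN 16 deltaN k % 693, Nat.mod_lt _ (Nat.succ_pos _)⟩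

theorem dFun_cube : ∀ k : Fin 693, dFun (dFun (dFun k)) = k := by decide +kernel

/-- The diagonal automorphism on the points. -/
def dP : P693 where
  toFun := dFun
  invFun k := dFun (dFun k)
  left_inv := dFun_cube
  right_inv := dFun_cube

/-- The rotation of the classes. -/
def dcls (c : ℕ) : ℕ := if c < 2 then c else 2 + (c - 2 + 1) % 3

theorem dFun_cls : ∀ k : Fin 693, cls (dFun k) = dcls (cls k) := by decide +kernel

theorem dFun_tv : ∀ (j : Fin 8) (k : Fin 693),
    dFun (tMove (genTv j) k) = tMove (dFun (genTv j)) (dFun k) := by decide +kernel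

theorem dFun_aGen : ∀ (j : Fin 5) (k : Fin 693),
    dFun (moveG (aGen j) k) = moveG (aGen j) (dFun k) := by decide +kernel

/-- One on the points of the 126-set of a class. -/
def kO (i : Fin 3) (k : Fin 693) : Bool := Nat.beq (cls k) 0 || Nat.beq (cls k) (2 + i.val)

theorem kO_pow : ∀ (i : Fin 3) (c : Fin 5),
    (Nat.beq (dcls^[(i : ℕ)] c) 0 || Nat.beq (dcls^[(i : ℕ)] c) (2 + i.val)) =
      (Nat.beq (c : ℕ) 0 || Nat.beq (c : ℕ) 2) := by decide +kernel

/-- The unions of classes that may be an orbit. -/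
theorem union_cases : ∀ u : Fin 5 → Bool, u 0 = true →
    (Finset.univ.filter fun k : Fin 693 => u ⟨cls k % 5, Nat.mod_lt _ (Nat.succ_pos _)⟩ = true).card ∣
      3265920 →
    (∀ c : Fin 5, u c = decide ((c : ℕ) = 0)) ∨
      (∀ c : Fin 5, u c = decide ((c : ℕ) ≠ 1)) ∨
      ∃ i : Fin 3, ∀ c : Fin 5, u c = decide ((c : ℕ) = 0 ∨ (c : ℕ) = 2 + i.val) := by
  decide +kernel

/-- The number of orthogonal neighbours off the class of weight four. -/
noncomputable def nbr (x : Fin 693) : ℕ :=
  (Finset.univ.filter fun k : Fin 693 => cls k ≠ 1 ∧ hm x k = 0).card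

theorem nbr_differ : ∃ x y : Fin 693, cls x = 0 ∧ cls y = 2 ∧ nbr x ≠ nbr y := by
  unfold nbr; decide +kernel

theorem g9_witness : ∃ x : Fin 693, cls x = 0 ∧ cls (moveG 9 x) = 2 := by decide +kernel

end Cfsg.Agent.SUSixU43
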