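import Cfsg.Agent.SUSixU43.Bound
import Cfsg.Agent.SUSixU43.Facts
import Cfsg.Agent.SUSixU43.Abelian
import Cfsg.Agent.SUSixU43.Ortho

/-!
The subgroups of the image of `SU(6, 2)` isomorphic to the certified simple group form exactly three
classes under conjugation.
-/

set_option autoImplicit false
set_option maxRecDepth 100000

namespace Cfsg.Agent.SUSixU43

open Equiv Cfsg.Agent.SchurBound Cfsg.Agent.SporB.FischerU Cfsg.Agent.GFour25

/-! ### General lemmas -/

theorem mem_of_cube {G : Type} [Group G] [Finite G] {K S : Subgroup G} (hKS : K ≤ S)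
    (hcard : Nat.card S ≤ 2 * Nat.card K) {g : G} (hg : g ∈ S) (h3 : g ^ 3 = 1) : g ∈ K := by
  have hidx := Subgroup.card_mul_index (K.subgroupOf S)
  rw [Nat.card_congr (Subgroup.subgroupOfEquivOfLe hKS).toEquiv] at hidx
  have hle : (K.subgroupOf S).index ≤ 2 :=
    Nat.le_of_mul_le_mul_left (by rw [hidx]; linarith) Nat.card_pos
  have hsq : ∀ x ∈ S, x * x ∈ K := by
    intro x hx
    have h0 := (K.subgroupOf S).index_ne_zero_of_finite
    rcases (show (K.subgroupOf S).index = 1 ∨ (K.subgroupOf S).index = 2 by omega) with h | h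
    · rw [Subgroup.index_eq_one, Subgroup.subgroupOf_eq_top] at h
      exact mul_mem (h hx) (h hx)
    · exact Subgroup.mul_self_mem_of_index_two h ⟨x, hx⟩
  have e : g = g * g * (g * g) := by
    calc g = g * g ^ 3 := by rw [h3, mul_one]
      _ = _ := by rw [pow_succ, pow_two]; simp only [mul_assoc]
  rw [e]
  exact hsq _ (mul_mem hg hg)

/-- Two subgroups of order 729 in a group whose order has 3-part 729 are conjugate in it. -/
theorem conj_sylow {H P Q : Subgroup P693} (hH : ¬ 2187 ∣ Nat.card H) (hP : P ≤ H) (hQ : Q ≤ H)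
    (cP : Nat.card P = 729) (cQ : Nat.card Q = 729) :
    ∃ g ∈ H, P.map (MulAut.conj g).toMonoidHom = Q := by
  haveI : Fact (Nat.Prime 3) := ⟨by norm_num⟩
  have key : ∀ R : Subgroup P693, R ≤ H → Nat.card R = 729 →
      ∃ S : Sylow 3 H, (S : Subgroup H) = R.subgroupOf H := by
    intro R hR cR
    have hc : Nat.card (R.subgroupOf H) = 3 ^ 6 := by
      rw [Nat.card_congr (Subgroup.subgroupOfEquivOfLe hR).toEquiv, cR]
      norm_num
    obtain ⟨S, hS⟩ := (IsPGroup.of_card hc).exists_le_sylow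
    refine ⟨S, (Subgroup.eq_of_le_of_card_ge hS ?_).symm⟩
    obtain ⟨m, hm⟩ := IsPGroup.iff_card.1 S.2
    rw [hc, hm]
    refine Nat.pow_le_pow_right (by norm_num) ?_
    by_contra hlt
    apply hH
    rw [show (2187 : ℕ) = 3 ^ 7 by norm_num]
    exact (pow_dvd_pow 3 (by omega : 7 ≤ m)).trans (hm ▸ Subgroup.card_subgroup_dvd_card (S : Subgroup H))
  obtain ⟨S, hS⟩ := key P hP cP
  obtain ⟨T, hT⟩ := key Q hQ cQ
  obtain ⟨g, hg⟩ := MulAction.exists_smul_eq H S T
  refine ⟨g.1, g.2, ?_⟩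
  have hsub := congrArg (fun U : Sylow 3 H => (U : Subgroup H).map H.subtype) hg
  simp only [Sylow.coe_subgroup_smul, hT, Subgroup.subgroupOf_map_subtype, inf_eq_left.2 hQ] at hsub
  rw [← hsub, hS]
  ext x
  constructor
  · rintro ⟨p, hp, rfl⟩
    exact ⟨⟨g.1 * p * g.1⁻¹, mul_mem (mul_mem g.2 (hP hp)) (inv_mem g.2)⟩,
      ⟨⟨p, hP hp⟩, hp, rfl⟩, rfl⟩
  · rintro ⟨_, ⟨p, hp, rfl⟩, rfl⟩
    exact ⟨p.1, hp, rfl⟩

/-! ### Facts moved to 693 points -/

theorem card_map_injective {G H : Type} [Group G] [Group H] (f : G →* H) (hf : Function.Injective f)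
    (K : Subgroup G) : Nat.card (K.map f) = Nat.card K :=
  (Nat.card_congr (Subgroup.equivMapOfInjective K f hf).toEquiv).symm

theorem genG_cube (i : Fin 11) (h : (i : ℕ) < 10) : genG i ^ 3 = 1 := by
  have e : res (⟨genG i, genG_mem_S1 i⟩ ^ 3) = res 1 := by
    rw [map_pow, map_one, res_genG, pow_succ, pow_two]
    refine Equiv.ext fun x => Fin.ext ?_
    rw [Perm.mul_apply, Perm.mul_apply, genP_look, genP_look, genP_look, cube_gens i h, Perm.one_apply]
  exact congrArg Subtype.val (res_injective e)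

theorem GA_comm {x y : P693} (hx : x ∈ GA) (hy : y ∈ GA) : x * y = y * x := by
  have e : res (⟨x, grpG_le_S1 _ hx⟩ * ⟨y, grpG_le_S1 _ hy⟩) =
      res (⟨y, grpG_le_S1 _ hy⟩ * ⟨x, grpG_le_S1 _ hx⟩) := by
    rw [map_mul, map_mul]
    exact comm_grpA (res_mem hx) (res_mem hy)
  exact congrArg Subtype.val (res_injective e)

theorem GM_conj_GA {g a : P693} (hg : g ∈ GM) (ha : a ∈ GA) : g * a * g⁻¹ ∈ GA := by
  refine mem_of_res (sub := chASub)
    (g := ⟨g, grpG_le_S1 _ hg⟩ * ⟨a, grpG_le_S1 _ ha⟩ * (⟨g, grpG_le_S1 _ hg⟩ : S1)⁻¹) ?_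
  rw [map_mul, map_mul, map_inv]
  exact conj_mem_grpA (res_mem hg) (res_mem ha)

theorem eq_GA {B : Subgroup P693} (hB : B ≤ GP) (hcard : Nat.card B = 81)
    (hcomm : ∀ x ∈ B, ∀ y ∈ B, x * y = y * x) : B = GA := by
  have hS : B ≤ S1 := hB.trans (grpG_le_S1 _)
  have hle : (B.subgroupOf S1).map res ≤ grp chPSub := by
    rintro _ ⟨b, hb, rfl⟩
    exact res_mem (hB hb)
  have heq : (B.subgroupOf S1).map res = grp chASub := by
    refine eq_grpA hle ?_ ?_
    · rw [card_map_injective _ res_injective, Nat.card_congr (Subgroup.subgroupOfEquivOfLe hS).toEquiv,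
        hcard]
    · rintro _ ⟨x, hx, rfl⟩ _ ⟨y, hy, rfl⟩
      rw [← map_mul, ← map_mul]
      exact congrArg res (Subtype.ext (hcomm _ hx _ hy))
  refine Subgroup.eq_of_le_of_card_ge (fun b hb => ?_) (by rw [card_GA, hcard])
  exact mem_of_res (g := ⟨b, hS hb⟩) (heq ▸ Subgroup.mem_map_of_mem res hb)

/-! ### The normaliser of the group of order 81 preserves the 45 points -/

theorem aGen_mem (i : Fin 5) : genG (aGen i) ∈ GA := genG_mem _ (by revert i; decide +kernel)

theorem GA_gen : GA = Subgroup.closure (Set.range fun i : Fin 5 => genG (aGen i)) := by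
  refine le_antisymm (grpG_le fun i hi => ?_) ((Subgroup.closure_le _).2 ?_)
  · rw [chASub_eq.1] at hi
    have h5 : (i : ℕ) < 5 := by simp at hi; omega
    exact Subgroup.subset_closure ⟨⟨i, h5⟩, rfl⟩
  · rintro _ ⟨i, rfl⟩
    exact aGen_mem i

theorem GA_orbit_small {x : Fin 693} (hx : k45 x = true) {a : P693} (ha : a ∈ GA) :
    a x ∈ orbL x := by
  obtain ⟨h1, -, h3⟩ := orbL_check x hx
  suffices H : ∀ y ∈ orbL x, a y ∈ orbL x from H x h1
  rw [GA_gen] at ha
  induction ha using Subgroup.closure_induction_left with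
  | one => exact fun y hy => hy
  | mul_left g hg z _ ih =>
    obtain ⟨i, rfl⟩ := hg
    intro y hy
    rw [Perm.mul_apply, genG_apply]
    exact h3 _ (ih y hy) i
  | inv_mul_cancel g hg z _ ih =>
    obtain ⟨i, rfl⟩ := hg
    intro y hy
    have h5 : (aGen i : ℕ) < 10 := by have := i.2; simp [aGen]; omega
    have e : (genG (aGen i))⁻¹ = genG (aGen i) * genG (aGen i) := by
      refine inv_eq_of_mul_eq_one_right ?_
      rw [← mul_assoc, ← genG_cube _ h5, pow_succ, pow_two]
    rw [e, Perm.mul_apply, Perm.mul_apply, genG_apply, genG_apply]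
    exact h3 _ (h3 _ (ih y hy) i) i

theorem GA_orbit_big {x : Fin 693} (hx : k45 x = false) :
    ∃ a : Fin 4 → P693, (∀ t, a t ∈ GA) ∧ Function.Injective fun t => a t x := by
  obtain ⟨i, j, h⟩ := four_points x hx
  refine ⟨![1, genG (aGen i), genG (aGen i) * genG (aGen i), genG (aGen j)], ?_, ?_⟩
  · intro t
    fin_cases t
    · exact one_mem GA
    · exact aGen_mem i
    · exact mul_mem (aGen_mem i) (aGen_mem i)
    · exact aGen_mem j
  · have e : (fun t => (![1, genG (aGen i), genG (aGen i) * genG (aGen i), genG (aGen j)] t : P693) x) =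
        ![x, moveG (aGen i) x, moveG (aGen i) (moveG (aGen i) x), moveG (aGen j) x] := by
      funext t
      fin_cases t <;> simp [genG_apply]
    rw [e, ← List.nodup_ofFn]
    simpa [List.ofFn_succ] using h

/-- An element of the group normalising the group of order 81 preserves the classes. -/
theorem normalizer_mem_GS {g : P693} (hg : g ∈ Gb) (hn : ∀ a ∈ GA, g * a * g⁻¹ ∈ GA) : g ∈ GS := by
  rw [← S45_eq]
  refine ⟨hg, ?_⟩
  have back : ∀ x, k45 (g x) = true → k45 x = true := by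
    intro x hx
    by_contra hx'
    obtain ⟨a, ha, hinj⟩ := GA_orbit_big (Bool.eq_false_iff.2 hx')
    have hmem : ∀ t, g (a t x) ∈ orbL (g x) := fun t => by
      have := GA_orbit_small hx (hn _ (ha t))
      rwa [Perm.mul_apply, Perm.mul_apply, inv_app] at this
    have hcard : (Finset.univ.image fun t => g (a t x)).card = 4 := by
      rw [Finset.card_image_of_injective _
        (show Function.Injective (fun t => g (a t x)) from g.injective.comp hinj)]
      simp
    have hsub : (Finset.univ.image fun t => g (a t x)) ⊆ (orbL (g x)).toFinset := by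
      intro y hy
      obtain ⟨t, -, rfl⟩ := Finset.mem_image.1 hy
      exact List.mem_toFinset.2 (hmem t)
    have := ((Finset.card_le_card hsub).trans (List.toFinset_card_le _)).trans (orbL_check _ hx).2.1
    omega
  let W : Finset (Fin 693) := Finset.univ.filter fun x => k45 x = true
  have hW : W.image g.symm = W := by
    refine Finset.eq_of_subset_of_card_le ?_ (by rw [Finset.card_image_of_injective _ g.symm.injective])
    intro y hy
    obtain ⟨x, hx, rfl⟩ := Finset.mem_image.1 hy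
    refine Finset.mem_filter.2 ⟨Finset.mem_univ _, back _ ?_⟩
    rw [Equiv.apply_symm_apply]
    exact (Finset.mem_filter.1 hx).2
  intro x
  rw [Bool.eq_iff_iff]
  refine ⟨back x, fun hx => ?_⟩
  have hxW : x ∈ W.image g.symm := by
    rw [hW]
    exact Finset.mem_filter.2 ⟨Finset.mem_univ _, hx⟩
  obtain ⟨y, hy, rfl⟩ := Finset.mem_image.1 hxW
  rw [Equiv.apply_symm_apply]
  exact (Finset.mem_filter.1 hy).2

/-! ### Homomorphisms from the simple group -/

/-- The image of a subgroup of the simple group. -/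
noncomputable def img (f : GK →* P693) (H : Subgroup P693) : Subgroup P693 := (H.subgroupOf GK).map f

theorem mem_img {f : GK →* P693} {H : Subgroup P693} {h : P693} (hH : h ∈ H) (hK : h ∈ GK) :
    f ⟨h, hK⟩ ∈ img f H :=
  ⟨⟨h, hK⟩, hH, rfl⟩

theorem card_img {f : GK →* P693} (hf : Function.Injective f) {H : Subgroup P693} (hH : H ≤ GK) :
    Nat.card (img f H) = Nat.card H := by
  rw [img, card_map_injective f hf, Nat.card_congr (Subgroup.subgroupOfEquivOfLe hH).toEquiv]

theorem img_le_range (f : GK →* P693) (H : Subgroup P693) : img f H ≤ f.range := by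
  rintro _ ⟨x, -, rfl⟩
  exact ⟨x, rfl⟩

theorem GP_le_GK : GP ≤ GK := GP_le_GM.trans GM_le_GK

/-- If the image of the Sylow subgroup is itself, then the image contains the monomial subgroup. -/
theorem img_facts {f : GK →* P693} (hf : Function.Injective f) (hGb : f.range ≤ Gb)
    (hP : img f GP = GP) : img f GA = GA ∧ GM ≤ f.range := by
  have hA : img f GA = GA := by
    refine eq_GA ?_ (by rw [card_img hf (GA_le_GP.trans GP_le_GK), card_GA]) ?_
    · conv_rhs => rw [← hP]
      exact Subgroup.map_mono fun x hx => GA_le_GP hx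
    · rintro _ ⟨x, hx, rfl⟩ _ ⟨y, hy, rfl⟩
      rw [← map_mul, ← map_mul]
      exact congrArg f (Subtype.ext (GA_comm hx hy))
  have hM : img f GM ≤ GS := by
    rintro _ ⟨m, hm, rfl⟩
    refine normalizer_mem_GS (hGb ⟨m, rfl⟩) fun a ha => ?_
    rw [← hA] at ha ⊢
    obtain ⟨b, hb, rfl⟩ := ha
    exact ⟨m * b * m⁻¹, GM_conj_GA hm hb, by rw [map_mul, map_mul, map_inv]⟩
  refine ⟨hA, grpG_le fun i hi => img_le_range f GM (mem_of_cube hM ?_ (GM_le_GS (genG_mem i hi))
    (genG_cube i ((sub_facts.1 _ hi).trans (by norm_num))))⟩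
  rw [card_GS, card_img hf GM_le_GK, card_GM]

/-- Conjugation after a homomorphism. -/
noncomputable def conjHom (g : P693) (f : GK →* P693) : GK →* P693 :=
  (MulAut.conj g).toMonoidHom.comp f

theorem conjHom_injective (g : P693) {f : GK →* P693} (hf : Function.Injective f) :
    Function.Injective (conjHom g f) :=
  (MulAut.conj g).injective.comp hf

theorem conjHom_range (g : P693) (f : GK →* P693) :
    (conjHom g f).range = f.range.map (MulAut.conj g).toMonoidHom :=
  MonoidHom.range_comp _ _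

theorem conjHom_img (g : P693) (f : GK →* P693) (H : Subgroup P693) :
    img (conjHom g f) H = (img f H).map (MulAut.conj g).toMonoidHom :=
  (Subgroup.map_map _ _ _).symm

theorem conj_le_Gb {g : P693} (hg : g ∈ Gb) {H : Subgroup P693} (hH : H ≤ Gb) :
    H.map (MulAut.conj g).toMonoidHom ≤ Gb := by
  rintro _ ⟨x, hx, rfl⟩
  exact mul_mem (mul_mem hg (hH hx)) (inv_mem hg)

/-! ### The diagonal automorphism -/

theorem cls_pow (n : ℕ) (k : Fin 693) : cls ((dP ^ n) k) = dcls^[n] (cls k) := by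
  induction n with
  | zero => rfl
  | succ n ih =>
    rw [pow_succ', Perm.mul_apply, Function.iterate_succ_apply', ← ih]
    exact dFun_cls _

theorem dP_conj_Gb (n : ℕ) : Gb.map (MulAut.conj (dP ^ n)).toMonoidHom ≤ Gb := by
  induction n with
  | zero => rintro _ ⟨x, hx, rfl⟩; simpa using hx
  | succ n ih =>
    rintro _ ⟨x, hx, rfl⟩
    have h1 : Gb.map (MulAut.conj dP).toMonoidHom ≤ Gb := by
      conv_lhs => rw [Gb, range_pointHom_eq, MonoidHom.map_closure]
      rw [Subgroup.closure_le]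
      rintro _ ⟨_, ⟨j, rfl⟩, rfl⟩
      refine ⟨tv (dFun (genTv j)), Equiv.ext fun k => ?_⟩
      obtain ⟨y, rfl⟩ := dP.surjective k
      show pointHom (tv (dFun (genTv j))) (dP y) = (dP * pointHom (tv (genTv j)) * dP⁻¹) (dP y)
      rw [Perm.mul_apply, Perm.mul_apply, inv_app, pointHom_tv, pointHom_tv]
      exact (dFun_tv j y).symm
    have h2 := h1 ⟨_, ih ⟨x, hx, rfl⟩, rfl⟩
    simpa [pow_succ', mul_assoc] using h2

theorem dP_pow_comm_GA (n : ℕ) {a : P693} (ha : a ∈ GA) : dP ^ n * a = a * dP ^ n := by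
  suffices h : dP * a = a * dP from (Commute.pow_left (show Commute dP a from h) n).eq
  have hle : GA ≤ Subgroup.centralizer {dP} := by
    rw [GA_gen, Subgroup.closure_le]
    rintro _ ⟨j, rfl⟩
    rw [SetLike.mem_coe, Subgroup.mem_centralizer_singleton_iff]
    refine Equiv.ext fun k => ?_
    simp only [Perm.mul_apply, genG_apply]
    exact (dFun_aGen j k).symm
  exact (Subgroup.mem_centralizer_singleton_iff.1 (hle ha)).symm

theorem dP_three : dP ^ 3 = 1 := by
  refine Equiv.ext fun k => ?_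
  rw [pow_succ, pow_two]
  exact dFun_cube k

/-- The simple group followed by a power of the diagonal automorphism. -/
noncomputable def fK (i : ℕ) : GK →* P693 := conjHom (dP ^ i) GK.subtype

/-- The three simple groups. -/
noncomputable def GKd (i : Fin 3) : Subgroup P693 := (fK i).range

theorem fK_injective (i : ℕ) : Function.Injective (fK i) := conjHom_injective _ Subtype.val_injective

theorem fK_range_Gb (i : ℕ) : (fK i).range ≤ Gb := by
  rintro _ ⟨x, rfl⟩
  exact dP_conj_Gb i ⟨x.1, GK_le_Gb x.2, rfl⟩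

theorem card_range {f : GK →* P693} (hf : Function.Injective f) : Nat.card f.range = 3265920 := by
  rw [← Nat.card_congr (MonoidHom.ofInjective hf).toEquiv, card_GK]

theorem card_GKd (i : Fin 3) : Nat.card (GKd i) = 3265920 := card_range (fK_injective i)

theorem GKd_le_Gb (i : Fin 3) : GKd i ≤ Gb := fK_range_Gb i

theorem nonempty_GK_equiv_GKd (i : Fin 3) : Nonempty (GK ≃* GKd i) :=
  ⟨MonoidHom.ofInjective (fK_injective i)⟩

theorem kO_dP (i : Fin 3) (k : Fin 693) : kO i ((dP ^ (i : ℕ)) k) = k1 k := by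
  rw [kO, cls_pow]
  exact kO_pow i ⟨cls k, (rank_check k).1⟩

theorem GKd_le_keep (i : Fin 3) : GKd i ≤ keep (kO i) := by
  rintro _ ⟨x, rfl⟩ k
  obtain ⟨y, rfl⟩ := (dP ^ (i : ℕ)).surjective k
  show kO i ((dP ^ (i : ℕ) * x.1 * (dP ^ (i : ℕ))⁻¹) ((dP ^ (i : ℕ)) y)) = _
  rw [Perm.mul_apply, Perm.mul_apply, inv_app, kO_dP, kO_dP]
  exact (grpG_le_S1 _ x.2).2 y

/-! ### Classification -/

theorem nine_mem : genG 9 ∈ GK := genG_mem _ (by decide +kernel)

/-- Every copy of the simple group is conjugate to one of the three. -/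
theorem classify {X : Subgroup P693} (hX : X ≤ Gb) (e : GK ≃* X) :
    ∃ g ∈ Gb, ∃ i : Fin 3, X.map (MulAut.conj g).toMonoidHom = GKd i := by
  classical
  let f0 : GK →* P693 := X.subtype.comp e.toMonoidHom
  have hf0 : Function.Injective f0 := X.subtype_injective.comp e.injective
  have hr0 : f0.range = X := by
    ext x
    exact ⟨fun ⟨y, hy⟩ => hy ▸ (e y).2, fun hx => ⟨e.symm ⟨x, hx⟩, by simp [f0]⟩⟩
  obtain ⟨g, hg, hgP⟩ := conj_sylow (H := Gb) (by rw [card_range_pointHom]; norm_num)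
    ((img_le_range f0 GP).trans (hr0.le.trans hX)) GP_le_Gb
    (by rw [card_img hf0 GP_le_GK, card_GP]) card_GP
  refine ⟨g, hg, ?_⟩
  have hrange := conjHom_range g f0
  rw [hr0] at hrange
  rw [← hrange]
  set f := conjHom g f0
  have hf : Function.Injective f := conjHom_injective g hf0
  have hfGb : f.range ≤ Gb := hrange ▸ conj_le_Gb hg hX
  obtain ⟨-, hM⟩ := img_facts hf hfGb (by rw [conjHom_img]; exact hgP)
  obtain ⟨x0, hx0, -⟩ := g9_witness
  let O : Finset (Fin 693) := Finset.univ.filter fun k => ∃ h ∈ f.range, h x0 = k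
  have hOdvd : O.card ∣ 3265920 := by
    have h1 := Nat.card_congr (MulAction.orbitProdStabilizerEquivGroup f.range x0)
    rw [Nat.card_prod] at h1
    have h2 : Nat.card (MulAction.orbit f.range x0) = O.card := by
      rw [← Nat.card_eq_finsetCard]
      refine Nat.card_congr (Equiv.subtypeEquivRight fun k => ?_)
      simp only [O, Finset.mem_filter, Finset.mem_univ, true_and]
      exact ⟨fun ⟨h, hh⟩ => ⟨h.1, h.2, hh⟩, fun ⟨h, hh, he⟩ => ⟨⟨h, hh⟩, he⟩⟩
    rw [h2, card_range hf] at h1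
    exact ⟨_, h1.symm⟩
  have hclass : ∀ k l : Fin 693, cls k = cls l → k ∈ O → l ∈ O := by
    intro k l hkl hk
    obtain ⟨m, hm, hml⟩ := GM_orbit hkl
    obtain ⟨h, hh, hhk⟩ := (Finset.mem_filter.1 hk).2
    exact Finset.mem_filter.2 ⟨Finset.mem_univ _, m * h, mul_mem (hM hm) hh,
      by rw [Perm.mul_apply, hhk, hml]⟩
  have hinv : ∀ h ∈ f.range, ∀ k, h k ∈ O ↔ k ∈ O := by
    intro h hh k
    constructor <;> intro hk <;> obtain ⟨h', hh', he⟩ := (Finset.mem_filter.1 hk).2
    · exact Finset.mem_filter.2 ⟨Finset.mem_univ _, h⁻¹ * h', mul_mem (inv_mem hh) hh',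
        by rw [Perm.mul_apply, he, inv_app]⟩
    · exact Finset.mem_filter.2 ⟨Finset.mem_univ _, h * h', mul_mem hh hh',
        by rw [Perm.mul_apply, he]⟩
  have hx0O : x0 ∈ O := Finset.mem_filter.2 ⟨Finset.mem_univ _, 1, one_mem _, rfl⟩
  let u : Fin 5 → Bool := fun c => decide (∃ k ∈ O, cls k = (c : ℕ))
  have hu : ∀ k : Fin 693, k ∈ O ↔ u ⟨cls k % 5, Nat.mod_lt _ (Nat.succ_pos _)⟩ = true := by
    intro k
    simp only [u, decide_eq_true_eq, Nat.mod_eq_of_lt (rank_check k).1]
    exact ⟨fun h => ⟨k, h, rfl⟩, fun ⟨l, hl, hlk⟩ => hclass l k hlk hl⟩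
  have hmod : ∀ k : Fin 693, cls k % 5 = cls k := fun k => Nat.mod_eq_of_lt (rank_check k).1
  have hu0 : u 0 = true := by
    simp only [u, decide_eq_true_eq]
    exact ⟨x0, hx0O, hx0⟩
  have hOeq : O = Finset.univ.filter fun k : Fin 693 =>
      u ⟨cls k % 5, Nat.mod_lt _ (Nat.succ_pos _)⟩ = true := by
    ext k
    rw [hu k]
    simp
  rcases union_cases u hu0 (hOeq ▸ hOdvd) with h | h | ⟨i, h⟩
  · exfalso
    have hle : f.range ≤ S45 := fun x hx => by
      refine ⟨hfGb hx, fun k => ?_⟩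
      have hk := hinv x hx k
      simp only [hu, h, hmod, decide_eq_true_eq] at hk
      rw [Bool.eq_iff_iff, k45, k45, Nat.beq_eq, Nat.beq_eq]
      exact hk
    have := Subgroup.card_le_of_le hle
    rw [card_range hf] at this
    have := this.trans card_S45_le
    omega
  · exfalso
    have hkeep : ∀ x ∈ f.range, ∀ k, (cls (x k) ≠ 1 ↔ cls k ≠ 1) := by
      intro x hx k
      have hk := hinv x hx k
      simp only [hu, h, hmod, decide_eq_true_eq] at hk
      exact hk
    obtain ⟨a, b, ha, hb, hne⟩ := nbr_differ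
    have hbO : b ∈ O := by
      rw [hu, h, decide_eq_true_eq]
      show cls b % 5 ≠ 1
      rw [hmod, hb]
      norm_num
    have haO : a ∈ O := by
      rw [hu, h, decide_eq_true_eq]
      show cls a % 5 ≠ 1
      rw [hmod, ha]
      norm_num
    obtain ⟨h1, hh1, he1⟩ := (Finset.mem_filter.1 haO).2
    obtain ⟨h2, hh2, he2⟩ := (Finset.mem_filter.1 hbO).2
    have hT : h2 * h1⁻¹ ∈ f.range := mul_mem hh2 (inv_mem hh1)
    have hab : (h2 * h1⁻¹) a = b := by
      rw [Perm.mul_apply, ← he1, inv_app, he2]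
    obtain ⟨s, hs⟩ := hfGb hT
    apply hne
    unfold nbr
    refine Finset.card_equiv (h2 * h1⁻¹) fun k => ?_
    simp only [Finset.mem_filter, Finset.mem_univ, true_and]
    rw [hkeep _ hT k]
    refine and_congr_right fun _ => ?_
    rw [← hab, ← hs]
    exact (hm_zero_iff s a k).symm
  · refine ⟨i, ?_⟩
    let n : ℕ := (i : ℕ)
    have hdinv : (dP ^ n)⁻¹ = dP ^ (2 * n) := by
      refine inv_eq_of_mul_eq_one_right ?_
      rw [← pow_add, show n + 2 * n = 3 * n by ring, pow_mul, dP_three, one_pow]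
    set f2 := conjHom (dP ^ n)⁻¹ f
    have hf2 : Function.Injective f2 := conjHom_injective _ hf
    have hS1 : f2.range ≤ S1 := by
      rw [conjHom_range]
      rintro _ ⟨x, hx, rfl⟩
      refine ⟨hdinv ▸ dP_conj_Gb (2 * n) ⟨x, hfGb hx, rfl⟩, fun k => ?_⟩
      have hk := hinv x hx ((dP ^ n) k)
      simp only [hu, h, hmod, decide_eq_true_eq] at hk
      rw [← kO_dP i k, ← kO_dP i (((MulAut.conj (dP ^ n)⁻¹).toMonoidHom x) k)]
      rw [Bool.eq_iff_iff]
      simp only [kO, Bool.or_eq_true, Nat.beq_eq]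
      simp only [MulEquiv.coe_toMonoidHom, MulAut.conj_apply, inv_inv, Perm.mul_apply, n, app_inv]
      exact hk
    have hle : f2.range ≤ GK := by
      rintro _ ⟨x, rfl⟩
      have hgen : ∀ j : Fin 11, (j : ℕ) ∈ chKSub → ∀ hj : genG j ∈ GK, f2 ⟨genG j, hj⟩ ∈ GK := by
        intro j hjm hj
        refine mem_of_cube (grpG_le_S1 chKSub) ?_ (hS1 ⟨_, rfl⟩) ?_
        · exact card_S1_le.trans (by rw [show Nat.card (grpG chKSub) = 3265920 from card_GK])
        · rw [← map_pow, show (⟨genG j, hj⟩ : GK) ^ 3 = 1 from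
            Subtype.ext (genG_cube j (sub_facts.2.1 _ hjm)), map_one]
      obtain ⟨x, hx⟩ := x
      induction hx using Subgroup.closure_induction with
      | mem y hy =>
        obtain ⟨j, hj, rfl⟩ := hy
        exact hgen j hj _
      | one => exact (map_one f2).symm ▸ one_mem GK
      | mul y z hy hz ihy ihz =>
        rw [show (⟨y * z, _⟩ : GK) = ⟨y, hy⟩ * ⟨z, hz⟩ from rfl, map_mul]
        exact mul_mem ihy ihz
      | inv y hy ihy =>
        rw [show (⟨y⁻¹, _⟩ : GK) = ⟨y, hy⟩⁻¹ from rfl, map_inv]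
        exact inv_mem ihy
    have heq : f2.range = GK :=
      Subgroup.eq_of_le_of_card_ge hle (by rw [card_range hf2, card_GK])
    have hi : GKd i = f2.range.map (MulAut.conj (dP ^ n)).toMonoidHom := by
      rw [heq, GKd, fK, conjHom_range, Subgroup.range_subtype]
    rw [hi, conjHom_range (dP ^ n)⁻¹ f, Subgroup.map_map]
    ext x
    simp only [Subgroup.mem_map, MonoidHom.comp_apply, MulEquiv.coe_toMonoidHom, MulAut.conj_apply]
    constructor
    · intro hx
      exact ⟨x, hx, by group⟩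
    · rintro ⟨y, hy, rfl⟩
      have : dP ^ n * ((dP ^ n)⁻¹ * y * (dP ^ n)⁻¹⁻¹) * (dP ^ n)⁻¹ = y := by group
      exact this.symm ▸ hy

/-! ### The three are not conjugate -/

theorem shift_separates : ∀ i j : Fin 3,
    (Nat.beq (dcls^[(i : ℕ)] 2) 0 || Nat.beq (dcls^[(i : ℕ)] 2) (2 + j.val)) =
      (Nat.beq (dcls^[(i : ℕ)] 0) 0 || Nat.beq (dcls^[(i : ℕ)] 0) (2 + j.val)) → i = j := by
  decide +kernel

theorem eq_of_conj {g : P693} (hg : g ∈ Gb) {i j : Fin 3}
    (h : (GKd i).map (MulAut.conj g).toMonoidHom = GKd j) : i = j := by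
  have hj : GM ≤ GKd j := by
    have hle : img (fK j) GM ≤ GS := by
      rw [← S45_eq]
      rintro _ ⟨m, hm, rfl⟩
      refine ⟨fK_range_Gb j ⟨m, rfl⟩, keep_cls_le_k45 fun k => ?_⟩
      obtain ⟨y, rfl⟩ := (dP ^ (j : ℕ)).surjective k
      show cls ((dP ^ (j : ℕ) * m.1 * (dP ^ (j : ℕ))⁻¹) ((dP ^ (j : ℕ)) y)) = _
      rw [Perm.mul_apply, Perm.mul_apply, inv_app, cls_pow, cls_pow]
      exact congrArg _ ((GM_le_GS.trans GS_le_cls) hm y)
    exact grpG_le fun t ht => img_le_range _ GM (mem_of_cube hle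
      (by rw [card_GS, card_img (fK_injective j) GM_le_GK, card_GM]) (GM_le_GS (genG_mem t ht))
      (genG_cube t ((sub_facts.1 _ ht).trans (by norm_num))))
  let f := conjHom g (fK i)
  have hrange : f.range = GKd j := (conjHom_range g (fK i)).trans h
  have hf : Function.Injective f := conjHom_injective g (fK_injective i)
  obtain ⟨k, hk, hkP⟩ := conj_sylow (H := GKd j) (by rw [card_GKd]; norm_num)
    (hrange ▸ img_le_range f GP) (GP_le_GM.trans hj) (by rw [card_img hf GP_le_GK, card_GP]) card_GP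
  let f2 := conjHom k f
  have hr2 : f2.range = GKd j := by
    rw [conjHom_range, hrange]
    exact le_antisymm (fun _ ⟨x, hx, e⟩ => e ▸ mul_mem (mul_mem hk hx) (inv_mem hk))
      fun x hx => ⟨k⁻¹ * x * k, mul_mem (mul_mem (inv_mem hk) hx) hk, by simp [mul_assoc]⟩
  obtain ⟨hA, -⟩ := img_facts (f := f2) (conjHom_injective k hf) (hr2 ▸ GKd_le_Gb j)
    (by rw [conjHom_img]; exact hkP)
  have hkg : k * g ∈ GS := by
    refine normalizer_mem_GS (mul_mem (GKd_le_Gb j hk) hg) fun a ha => ?_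
    have hm := mem_img (f := f2) ha (GA_le_GP.trans GP_le_GK ha)
    rw [hA] at hm
    have e : f2 ⟨a, GA_le_GP.trans GP_le_GK ha⟩ = k * g * a * (k * g)⁻¹ := by
      show k * (g * (dP ^ (i : ℕ) * a * (dP ^ (i : ℕ))⁻¹) * g⁻¹) * k⁻¹ = _
      rw [dP_pow_comm_GA _ ha]
      group
    rwa [← e]
  obtain ⟨x, hx0, hx2⟩ := g9_witness
  have hmem : k * g * (fK i ⟨genG 9, nine_mem⟩) * (k * g)⁻¹ ∈ GKd j := by
    rw [← hr2]
    exact ⟨⟨genG 9, nine_mem⟩, by show k * (g * fK i _ * g⁻¹) * k⁻¹ = _; group⟩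
  have hcls := GS_le_cls hkg
  let p := (k * g) ((dP ^ (i : ℕ)) x)
  have h1 := GKd_le_keep j hmem p
  have hp0 : cls p = dcls^[(i : ℕ)] 0 := by rw [hcls, cls_pow, hx0]
  have hp2 : cls ((k * g * (fK i ⟨genG 9, nine_mem⟩) * (k * g)⁻¹) p) = dcls^[(i : ℕ)] 2 := by
    rw [Perm.mul_apply, Perm.mul_apply, show (k * g)⁻¹ p = (dP ^ (i : ℕ)) x from
      inv_app _ _, hcls]
    show cls ((dP ^ (i : ℕ) * genG 9 * (dP ^ (i : ℕ))⁻¹) ((dP ^ (i : ℕ)) x)) = _
    rw [Perm.mul_apply, Perm.mul_apply, inv_app, cls_pow, genG_apply, hx2]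
  simp only [kO, hp0, hp2] at h1
  exact shift_separates i j h1

end Cfsg.Agent.SUSixU43
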