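import Cfsg.Agent.SUSixU43.Moves
import Cfsg.Agent.SUSixU43.DataCerts
import Cfsg.Agent.SUSixU43.Util
import Cfsg.Agent.SporB.FiTwoTwo.Unit

/-!
The certified groups on 126 points as subgroups of the permutation image of `SU(6, 2)` on the 693
isotropic points.
-/

set_option autoImplicit false
set_option maxRecDepth 100000

namespace Cfsg.Agent.SUSixU43

open Equiv Cfsg.Agent.SchurBound Cfsg.Agent.SporB.FischerU Cfsg.Agent.GFour25

theorem genG_mem_S1 (i : Fin 11) : genG i ∈ S1 :=
  ⟨genG_mem_Gb i, fun k => by rw [genG_apply, moveG_k1]⟩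

theorem genG_cls (i : Fin 11) (h : (i : ℕ) ≠ 9) : genG i ∈ keep cls := fun k => by
  rw [genG_apply, moveG_cls i k h]

/-- The action on the first 126-set. -/
noncomputable def res : S1 →* Perm (Fin 126) where
  toFun g :=
    { toFun := fun a => pos (g.1 (o1 a))
      invFun := fun a => pos ((g.1)⁻¹ (o1 a))
      left_inv := fun a => by
        have h : k1 (g.1 (o1 a)) = true := (g.2.2 _).trans (pos_o1 a).1
        show pos ((g.1)⁻¹ (o1 (pos (g.1 (o1 a))))) = a
        rw [o1_pos _ h, inv_app, (pos_o1 a).2]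
      right_inv := fun a => by
        have h : k1 ((g.1)⁻¹ (o1 a)) = true := ((Subgroup.inv_mem (keep k1) g.2.2) _).trans (pos_o1 a).1
        show pos (g.1 (o1 (pos ((g.1)⁻¹ (o1 a))))) = a
        rw [o1_pos _ h, app_inv, (pos_o1 a).2] }
  map_one' := Equiv.ext fun a => (pos_o1 a).2
  map_mul' g h := Equiv.ext fun a => by
    have e : k1 (h.1 (o1 a)) = true := (h.2.2 _).trans (pos_o1 a).1
    show pos ((g.1 * h.1) (o1 a)) = pos (g.1 (o1 (pos (h.1 (o1 a)))))
    rw [o1_pos _ e, Perm.mul_apply]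

theorem res_apply (g : S1) (a : Fin 126) : res g a = pos (g.1 (o1 a)) := rfl

theorem res_genG (i : Fin 11) : res ⟨genG i, genG_mem_S1 i⟩ = genP i := by
  refine Equiv.ext fun a => Fin.ext ?_
  have h := allN_iff genOK_true i i.2
  rw [Bool.and_eq_true] at h
  rw [res_apply, genG_apply, moveG_res, genP_eq, J2.tabPerm_apply h.1]

/-! ### Scalars -/

/-- The hermitian product of two points. -/
noncomputable def hm (a b : Fin 693) : F4 := hs (pt a) (pt b)

/-- A base point. -/
def bpt (B : List ℕ) (i : ℕ) : Fin 693 := ⟨B.getD i 0 % 693, Nat.mod_lt _ (Nat.succ_pos _)⟩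

/-- The points reached along edges. -/
def reach : List (ℕ × ℕ) → List ℕ → List ℕ
  | [], s => s
  | (i, p) :: es, s => reach es (bif s.contains p then i :: s else s)

theorem reach_const {α : Type} {c : ℕ → α} : ∀ (es : List (ℕ × ℕ)) (s : List ℕ),
    (∀ e ∈ es, c e.1 = c e.2) → (∀ x ∈ s, c x = c 0) → ∀ x ∈ reach es s, c x = c 0
  | [], s, _, hs, x, hx => hs x hx
  | (i, p) :: es, s, he, hs, x, hx => by
    refine reach_const es _ (fun e h => he e (List.mem_cons_of_mem _ h)) ?_ x hx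
    intro y hy
    cases hp : s.contains p with
    | false => rw [hp, cond_false] at hy; exact hs y hy
    | true =>
      rw [hp, cond_true, List.mem_cons] at hy
      rcases hy with rfl | hy
      · exact (he _ List.mem_cons_self).trans (hs p (by simpa using hp))
      · exact hs y hy

/-- The coordinates recover the unit vectors. -/
noncomputable def spanOK (B C : List ℕ) : Prop :=
  ∀ j m : Fin 6, (∑ i : Fin 6, vecN (C.getD j 0) i * pt (bpt B i) m) = if m = j then 1 else 0

/-- The edges join non-orthogonal base points and reach everything. -/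
noncomputable def edgeOK (B : List ℕ) (E : List (ℕ × ℕ)) : Prop :=
  (∀ e ∈ E, e.1 < 6 ∧ e.2 < 6 ∧ hm (bpt B e.1) (bpt B e.2) ≠ 0) ∧ ∀ i : Fin 6, (i : ℕ) ∈ reach E [0]

theorem spanOne : spanOK baseOne coordOne := by unfold spanOK; decide +kernel
theorem spanTwo : spanOK baseTwo coordTwo := by unfold spanOK; decide +kernel
theorem edgeOne : edgeOK baseOne edgesOne := by unfold edgeOK; decide +kernel
theorem edgeTwo : edgeOK baseTwo edgesTwo := by unfold edgeOK; decide +kernel

theorem eq_scalar {B C : List ℕ} (hs : spanOK B C) (M : Matrix (Fin 6) (Fin 6) F4) (c : F4)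
    (h : ∀ i : Fin 6, M.mulVec (pt (bpt B i)) = c • pt (bpt B i)) : M = c • 1 := by
  refine Matrix.ext_of_mulVec_single fun j => ?_
  have e : (Pi.single j 1 : Vec) = ∑ i : Fin 6, vecN (C.getD j 0) i • pt (bpt B i) := by
    funext m
    rw [Finset.sum_apply, Pi.single_apply]
    exact (hs j m).symm
  rw [Matrix.smul_mulVec, Matrix.one_mulVec, e, Matrix.mulVec_sum, Finset.smul_sum]
  refine Finset.sum_congr rfl fun i _ => ?_
  rw [Matrix.mulVec_smul, h, smul_comm]

/-- The matrix of an element. -/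
abbrev mS (s : SUSix) : Matrix (Fin 6) (Fin 6) F4 :=
  ((s : Matrix.SpecialLinearGroup (Fin 6) F4) : Matrix (Fin 6) (Fin 6) F4)

theorem act_pt (s : SUSix) (k : Fin 693) :
    ∃ c : F4, c ≠ 0 ∧ TTClass.UnitF4.act s (pt k) = c • pt (pointHom s k) := by
  obtain ⟨c, hc, e⟩ := pt_spec _ (act_pt_spec s k).2 (act_pt_spec s k).1
  exact ⟨c, hc, by rw [pointHom_apply]; exact e⟩

theorem f4_pair : ∀ a b c d : F4, a ≠ 0 → b ≠ 0 → d ≠ 0 → a * (b ^ 2 * c) = d → c = d → a = b := by
  decide

theorem hm_act (s : SUSix) (a b : Fin 693) (ca cb : F4)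
    (ha : TTClass.UnitF4.act s (pt a) = ca • pt (pointHom s a))
    (hb : TTClass.UnitF4.act s (pt b) = cb • pt (pointHom s b)) :
    ca * (cb ^ 2 * hm (pointHom s a) (pointHom s b)) = hm a b := by
  have h := TTClass.UnitF4.act_iso s (pt a) (pt b)
  rw [ha, hb, TTClass.UnitF4.h_smul_left, TTClass.UnitF4.h_smul_right] at h
  rw [hm, hm, hs_eq, hs_eq]
  exact h

theorem eq_one_of_fix {B C : List ℕ} {E : List (ℕ × ℕ)} (hs : spanOK B C) (he : edgeOK B E)
    {g : P693} (hg : g ∈ Gb) (hfix : ∀ i : Fin 6, g (bpt B i) = bpt B i) : g = 1 := by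
  obtain ⟨s, rfl⟩ := hg
  choose c hc0 hc using fun i : ℕ => act_pt s (bpt B i)
  have hconst : ∀ i : Fin 6, c i = c 0 := fun i => reach_const (c := c) E [0] (fun e hee => by
    obtain ⟨h1, h2, h3⟩ := he.1 e hee
    have h := hm_act s _ _ _ _ (hc e.1) (hc e.2)
    have f1 : pointHom s (bpt B e.1) = bpt B e.1 := hfix ⟨e.1, h1⟩
    have f2 : pointHom s (bpt B e.2) = bpt B e.2 := hfix ⟨e.2, h2⟩
    rw [f1, f2] at h
    exact f4_pair _ _ _ _ (hc0 _) (hc0 _) h3 h rfl) (by simp) i (he.2 i)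
  have hM := eq_scalar hs (mS s) (c 0) fun i => by
    have h := hc i
    rw [hfix i, hconst i] at h
    exact h
  refine Equiv.ext fun k => ?_
  rw [pointHom_apply, Perm.one_apply, moveFun, TTClass.UnitF4.act]
  rw [show ((s : Matrix.SpecialLinearGroup (Fin 6) F4) : Matrix (Fin 6) (Fin 6) F4) = c 0 • 1 from hM,
    Matrix.smul_mulVec, Matrix.one_mulVec, idx_smul_pt _ _ (hc0 0)]

theorem baseOne_k1 : ∀ i : Fin 6, k1 (bpt baseOne i) = true := by decide +kernel

theorem res_injective : Function.Injective res := by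
  rw [injective_iff_map_eq_one]
  intro g hg
  refine Subtype.ext (eq_one_of_fix spanOne edgeOne g.2.1 fun i => ?_)
  have h := congrArg (fun p : Perm (Fin 126) => o1 (p (pos (bpt baseOne i)))) hg
  simp only [Perm.one_apply, res_apply, o1_pos _ (baseOne_k1 i)] at h
  rwa [o1_pos _ ((g.2.2 _).trans (baseOne_k1 i))] at h

/-! ### The groups -/

/-- The group generated by some of the generators. -/
noncomputable def grpG (sub : List ℕ) : Subgroup P693 :=
  Subgroup.closure {g | ∃ i : Fin 11, (i : ℕ) ∈ sub ∧ genG i = g}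

theorem genG_mem {sub : List ℕ} (i : Fin 11) (h : (i : ℕ) ∈ sub) : genG i ∈ grpG sub :=
  Subgroup.subset_closure ⟨i, h, rfl⟩

theorem grpG_le {sub : List ℕ} {H : Subgroup P693}
    (h : ∀ i : Fin 11, (i : ℕ) ∈ sub → genG i ∈ H) : grpG sub ≤ H :=
  (Subgroup.closure_le _).2 fun _ ⟨i, hi, e⟩ => e ▸ h i hi

theorem grpG_le_S1 (sub : List ℕ) : grpG sub ≤ S1 := grpG_le fun i _ => genG_mem_S1 i

theorem map_res (sub : List ℕ) : ((grpG sub).subgroupOf S1).map res = grp sub := by
  have e : (grpG sub).subgroupOf S1 =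
      Subgroup.closure {g : S1 | ∃ i : Fin 11, (i : ℕ) ∈ sub ∧ genG i = g.1} := by
    apply Subgroup.map_injective S1.subtype_injective
    rw [Subgroup.subgroupOf_map_subtype, inf_eq_left.2 (grpG_le_S1 sub), MonoidHom.map_closure]
    refine congrArg Subgroup.closure ?_
    ext g
    constructor
    · rintro ⟨i, hi, rfl⟩
      exact ⟨⟨_, genG_mem_S1 i⟩, ⟨i, hi, rfl⟩, rfl⟩
    · rintro ⟨x, ⟨i, hi, hx⟩, rfl⟩
      exact ⟨i, hi, hx⟩
  rw [e, MonoidHom.map_closure]
  refine congrArg Subgroup.closure ?_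
  ext g
  constructor
  · rintro ⟨x, ⟨i, hi, hx⟩, rfl⟩
    exact ⟨i, hi, by rw [← res_genG i]; exact congrArg res (Subtype.ext hx)⟩
  · rintro ⟨i, hi, rfl⟩
    exact ⟨⟨_, genG_mem_S1 i⟩, ⟨i, hi, rfl⟩, res_genG i⟩

theorem res_mem {sub : List ℕ} {g : P693} (h : g ∈ grpG sub) :
    res ⟨g, grpG_le_S1 sub h⟩ ∈ grp sub :=
  map_res sub ▸ Subgroup.mem_map_of_mem res h

theorem mem_of_res {sub : List ℕ} {g : S1} (h : res g ∈ grp sub) : (g : P693) ∈ grpG sub := by
  rw [← map_res sub] at h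
  obtain ⟨x, hx, e⟩ := h
  exact (congrArg Subtype.val (res_injective e)).subst hx

/-- The groups are the same on 693 and on 126 points. -/
noncomputable def grpEquiv (sub : List ℕ) : grpG sub ≃* grp sub :=
  ((Subgroup.subgroupOfEquivOfLe (grpG_le_S1 sub)).symm.trans
    (Subgroup.equivMapOfInjective _ res res_injective)).trans
    (MulEquiv.subgroupCongr (map_res sub))

theorem card_grpG (sub : List ℕ) : Nat.card (grpG sub) = Nat.card (grp sub) :=
  Nat.card_congr (grpEquiv sub).toEquiv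

/-- The elementary abelian group of order 81. -/
noncomputable def GA : Subgroup P693 := grpG chASub
/-- The Sylow 3-subgroup. -/
noncomputable def GP : Subgroup P693 := grpG chPSub
/-- The monomial subgroup. -/
noncomputable def GM : Subgroup P693 := grpG chMSub
/-- The stabiliser of the 45 points. -/
noncomputable def GS : Subgroup P693 := grpG chSSub
/-- The simple subgroup. -/
noncomputable def GK : Subgroup P693 := grpG chKSub

theorem card_GA : Nat.card GA = 81 := (card_grpG _).trans card_grpA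
theorem card_GP : Nat.card GP = 729 := (card_grpG _).trans card_grpP
theorem card_GM : Nat.card GM = 29160 := (card_grpG _).trans card_grpM
theorem card_GS : Nat.card GS = 58320 := (card_grpG _).trans card_grpS
theorem card_GK : Nat.card GK = 3265920 := (card_grpG _).trans card_grpK

theorem sub_facts : (∀ i ∈ chMSub, i < 9) ∧ (∀ i ∈ chKSub, i < 10) ∧ (∀ i ∈ chASub, i ∈ chPSub) ∧
    (∀ i ∈ chPSub, i ∈ chMSub) ∧ (∀ i ∈ chMSub, i ∈ chKSub) ∧ (∀ i ∈ chMSub, i ∈ chSSub) ∧
    (∀ i ∈ chSSub, i ≠ 9) := by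
  decide +kernel

theorem GA_le_GP : GA ≤ GP := grpG_le fun i h => genG_mem i (sub_facts.2.2.1 _ h)
theorem GP_le_GM : GP ≤ GM := grpG_le fun i h => genG_mem i (sub_facts.2.2.2.1 _ h)
theorem GM_le_GK : GM ≤ GK := grpG_le fun i h => genG_mem i (sub_facts.2.2.2.2.1 _ h)
theorem GM_le_GS : GM ≤ GS := grpG_le fun i h => genG_mem i (sub_facts.2.2.2.2.2.1 _ h)

theorem GS_le_cls : GS ≤ keep cls :=
  grpG_le fun i h => genG_cls i (sub_facts.2.2.2.2.2.2 _ h)

theorem GS_le_Gb : GS ≤ Gb := grpG_le fun i _ => genG_mem_Gb i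
theorem GK_le_Gb : GK ≤ Gb := grpG_le fun i _ => genG_mem_Gb i
theorem GP_le_Gb : GP ≤ Gb := grpG_le fun i _ => genG_mem_Gb i

theorem keep_cls_le_k1 : keep cls ≤ keep k1 := fun g hg k => by simp only [k1, hg k]
theorem keep_cls_le_k45 : keep cls ≤ keep k45 := fun g hg k => by simp only [k45, hg k]

/-- The monomial group is transitive on each class. -/
theorem GM_orbit {k l : Fin 693} (h : cls k = cls l) : ∃ g ∈ GM, g k = l := by
  suffices H : ∀ c : Fin 5, ∀ i < (treeOf c).2, ∃ g ∈ GM, g (tPt c 0) = tPt c i by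
    obtain ⟨hc, hr, hk⟩ := rank_check k
    obtain ⟨-, hr', hl⟩ := rank_check l
    obtain ⟨g, hg, eg⟩ := H ⟨cls k, hc⟩ _ hr
    obtain ⟨g', hg', eg'⟩ := H ⟨cls l, (rank_check l).1⟩ _ hr'
    simp only at eg eg'
    rw [hk] at eg
    rw [hl, ← h] at eg'
    refine ⟨g' * g⁻¹, mul_mem hg' (inv_mem hg), ?_⟩
    show g' (g.symm k) = l
    rw [(Equiv.symm_apply_eq g).2 eg.symm, eg']
  intro c i
  induction i using Nat.strong_induction_on with
  | _ i ih =>
    intro hi
    by_cases h0 : i = 0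
    · exact ⟨1, one_mem _, by rw [h0]; rfl⟩
    obtain ⟨hp, hgen, hmv⟩ := tree_check c ⟨i, hi⟩ h0
    obtain ⟨g, hg, eg⟩ := ih _ hp (hp.trans hi)
    exact ⟨genG (tGen c i) * g, mul_mem (genG_mem _ hgen) hg,
      by rw [Perm.mul_apply, eg, genG_apply, hmv]⟩

end Cfsg.Agent.SUSixU43
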