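import Cfsg.Agent.SUSixU43.Check
import Cfsg.Agent.SUSixU43.DataCerts
import Cfsg.Agent.SUSixU43.DataMoves
import Cfsg.Agent.SUSixU43.Util
import Cfsg.Agent.SporB.FiTwoTwo.Unit

/-!
The generators on the 693 isotropic points: finite checks.
-/

set_option autoImplicit false
set_option maxRecDepth 100000

namespace Cfsg.Agent.SUSixU43

open Equiv Cfsg.Agent.SchurBound Cfsg.Agent.SporB.FischerU Cfsg.Agent.GFour25

/-- The permutations of the 693 points. -/
abbrev P693 : Type := Perm (Fin 693)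

/-- The image of the special unitary group. -/
noncomputable abbrev Gb : Subgroup P693 := pointHom.range

/-- The class of a point. -/
def cls (k : Fin 693) : ℕ := getN 4 clsN k

/-- One on the points of the first 126-set. -/
def k1 (k : Fin 693) : Bool := Nat.beq (cls k) 0 || Nat.beq (cls k) 2

/-- One on the 45 points of weight two. -/
def k45 (k : Fin 693) : Bool := Nat.beq (cls k) 0

/-- A point of the first 126-set. -/
def o1 (a : Fin 126) : Fin 693 := ⟨getN 16 o1N a % 693, Nat.mod_lt _ (Nat.succ_pos _)⟩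

/-- The place of a point in the first 126-set. -/
def pos (k : Fin 693) : Fin 126 := ⟨getN 8 posN k % 126, Nat.mod_lt _ (Nat.succ_pos _)⟩

theorem pos_o1 : ∀ a : Fin 126, k1 (o1 a) = true ∧ pos (o1 a) = a := by decide +kernel

theorem o1_pos : ∀ k : Fin 693, k1 k = true → o1 (pos k) = k := by decide +kernel

/-- The stabiliser of the fibres of a map. -/
def keep {β : Type} (p : Fin 693 → β) : Subgroup P693 where
  carrier := {g | ∀ k, p (g k) = p k}
  mul_mem' {g h} hg hh k := by rw [Perm.mul_apply, hg, hh]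
  one_mem' _ := rfl
  inv_mem' {g} hg k := by
    rw [← hg (g⁻¹ k), app_inv]

theorem mem_keep {β : Type} {p : Fin 693 → β} {g : P693} : g ∈ keep p ↔ ∀ k, p (g k) = p k := Iff.rfl

/-- The stabiliser of the first 126-set. -/
noncomputable def S1 : Subgroup P693 := Gb ⊓ keep k1

/-- The stabiliser of the 45 points. -/
noncomputable def S45 : Subgroup P693 := Gb ⊓ keep k45

/-- The transvection of a point of the 126-set. -/
noncomputable def tq (c : ℕ) : P693 :=
  pointHom (tv (o1 ⟨c % 126, Nat.mod_lt _ (Nat.succ_pos _)⟩))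

/-- The effect of it, computed. -/
noncomputable def tqMove (c : ℕ) (k : Fin 693) : Fin 693 :=
  tMove (o1 ⟨c % 126, Nat.mod_lt _ (Nat.succ_pos _)⟩) k

theorem tq_apply (c : ℕ) (k : Fin 693) : tq c k = tqMove c k := pointHom_tv _ _

theorem tq_mem (c : ℕ) : tq c ∈ Gb := ⟨_, rfl⟩

/-- A generator. -/
noncomputable def genG (i : Fin 11) : P693 :=
  if (i : ℕ) < 10 then (tq (pairOf i).1 * tq (pairOf i).2) ^ 2 else tq sigmaI

/-- The effect of a transvection, tabulated. -/
def tqT (c : ℕ) (k : Fin 693) : Fin 693 :=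
  ⟨getN 16 ((tqTabs.lookup c).getD 0) k % 693, Nat.mod_lt _ (Nat.succ_pos _)⟩

theorem tqT_ok : (tqTabs.map Prod.fst).all (fun c =>
    allN (fun k => Nat.beq (tqMove c ⟨k % 693, Nat.mod_lt _ (Nat.succ_pos _)⟩)
      (tqT c ⟨k % 693, Nat.mod_lt _ (Nat.succ_pos _)⟩)) 693) = true := by
  decide +kernel

theorem tqT_eq {c : ℕ} (h : c ∈ tqTabs.map Prod.fst) (k : Fin 693) : tqMove c k = tqT c k := by
  have e := Nat.eq_of_beq_eq_true (allN_iff (List.all_eq_true.1 tqT_ok c h) k k.2)
  have hk : (⟨(k : ℕ) % 693, Nat.mod_lt _ (Nat.succ_pos _)⟩ : Fin 693) = k :=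
    Fin.ext (Nat.mod_eq_of_lt k.2)
  rw [hk] at e
  exact Fin.ext e

theorem pairs_tabulated : (∀ i : Fin 10, (pairOf i).1 ∈ tqTabs.map Prod.fst ∧
    (pairOf i).2 ∈ tqTabs.map Prod.fst) ∧ sigmaI ∈ tqTabs.map Prod.fst := by
  decide +kernel

/-- The effect of a generator, computed. -/
def moveG (i : Fin 11) (k : Fin 693) : Fin 693 :=
  if (i : ℕ) < 10 then
    tqT (pairOf i).1 (tqT (pairOf i).2 (tqT (pairOf i).1 (tqT (pairOf i).2 k)))
  else tqT sigmaI k

theorem genG_apply (i : Fin 11) (k : Fin 693) : genG i k = moveG i k := by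
  unfold genG moveG
  by_cases h : (i : ℕ) < 10
  · obtain ⟨h1, h2⟩ := pairs_tabulated.1 ⟨i, h⟩
    rw [if_pos h, if_pos h, pow_two]
    simp only [Perm.mul_apply, tq_apply, tqT_eq h1, tqT_eq h2]
  · rw [if_neg h, if_neg h, tq_apply, tqT_eq pairs_tabulated.2]

theorem genG_mem_Gb (i : Fin 11) : genG i ∈ Gb := by
  unfold genG
  split
  · exact pow_mem (mul_mem (tq_mem _) (tq_mem _)) 2
  · exact tq_mem _

theorem moveG_k1 : ∀ (i : Fin 11) (k : Fin 693), k1 (moveG i k) = k1 k := by decide +kernel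

theorem moveG_cls : ∀ (i : Fin 11) (k : Fin 693), (i : ℕ) ≠ 9 → cls (moveG i k) = cls k := by
  decide +kernel

theorem moveG_res : ∀ (i : Fin 11) (a : Fin 126),
    (pos (moveG i (o1 a)) : ℕ) = J2.look (genTab i).1 a := by
  decide +kernel

/-! ### Trees -/

/-- The tree of a class. -/
def treeOf (c : ℕ) : ℕ × ℕ :=
  [(tree0, treeLen0), (tree1, treeLen1), (tree2, treeLen2), (tree3, treeLen3), (tree4, treeLen4)].getD c
    (0, 0)

/-- The point of an entry. -/
def tPt (c i : ℕ) : Fin 693 := ⟨getN 24 (treeOf c).1 i % 1024 % 693, Nat.mod_lt _ (Nat.succ_pos _)⟩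

/-- The generator of an entry. -/
def tGen (c i : ℕ) : Fin 11 := ⟨getN 24 (treeOf c).1 i / 1024 % 16 % 11, Nat.mod_lt _ (Nat.succ_pos _)⟩

/-- The parent of an entry. -/
def tPar (c i : ℕ) : ℕ := getN 24 (treeOf c).1 i / 16384

theorem tree_check : ∀ c : Fin 5, ∀ i : Fin (treeOf c).2, (i : ℕ) ≠ 0 →
    tPar c i < i ∧ (tGen c i : ℕ) ∈ chMSub ∧ moveG (tGen c i) (tPt c (tPar c i)) = tPt c i := by
  decide +kernel

theorem rank_check : ∀ k : Fin 693,
    cls k < 5 ∧ getN 16 rankN k < (treeOf (cls k)).2 ∧ tPt (cls k) (getN 16 rankN k) = k := by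
  decide +kernel

end Cfsg.Agent.SUSixU43
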